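import Cfsg.Agent.J4F.L
import Cfsg.Agent.J4F.FD
import Cfsg.Agent.Bt.Xc

/-! Elements of orders five and seven in the fourth Janko group. -/

set_option autoImplicit false
set_option maxRecDepth 1000000
set_option maxHeartbeats 400000
set_option Elab.async false

namespace CF.J4F

open CF.Comp CF.Bt CF.Dce CF.Dce.J4 MulAction Subgroup Cfsg

/-- the letters -/
noncomputable abbrev fSv : ℕ → L := evs R SvT

theorem vSv : vOK RE 5 SvV SvS SvN SvT 3 = true := by decide +kernel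

theorem rSv : Reps (vD vSv) SvN fSv := reps_v Rtb vSv

/-- the letters -/
noncomputable abbrev fFv : ℕ → L := evs R FvT

theorem vFv : vOK RE 140 FvV FvS FvN FvT 3 = true := by decide +kernel

theorem rFv : Reps (vD vFv) FvN fFv := reps_v Rtb vFv

/-- an element of order seven -/
noncomputable abbrev x7 : L := ev R [259]

/-- an element of order five -/
noncomputable abbrev h5 : L := ev R [285]

/-- a subgroup `S₅` -/
noncomputable abbrev I5 : Subgroup L := clo R [[285], [245]]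

/-- a subgroup `L₃(2)` -/
noncomputable abbrev Kl : Subgroup L := clo R [[259], [261]]

/-- a subgroup `2³ · L₃(2)` -/
noncomputable abbrev J7 : Subgroup L := clo R [[259], [287]]

/-- a subgroup `2³` -/
noncomputable abbrev Z3 : Subgroup L := clo R [[7], [269], [271]]

/-- a subgroup `5 : 4` -/
noncomputable abbrev R20 : Subgroup L := clo R [[303], [285]]

theorem rat_L {p c e : ℕ} (hp : p.Prime) (h : p ∈ [5, 7, 23, 29, 31, 37, 43]) {x : L} (hx : orderOf x = p)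
    (hc : Nat.card (centralizer {x}) = c) (k : ∀ d ∈ (p - 1).divisors, 86775571046077562880 % (d * c) = 0 →
      86775571046077562880 / (d * c) % p = 1 → d = e) : Nat.card (normalizer (zpowers x : Set L)) = e * c ∧
        ∀ a, ¬ p ∣ a → (IsConj x (x ^ a) ↔ a ^ e % p = 1) := by
  obtain ⟨d, h1, h2, h3, h4⟩ := rat_syl hp (not_sq_L h) hx card_L hc
  exact k d h1 h2 h3 ▸ h4

theorem card_S5 : Nat.card (Equiv.Perm (Fin 5)) = 120 := by rw [Nat.card_perm, Nat.card_fin]; rfl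

theorem ord7 : orderOf x7 = 7 := orderOf_ordW eR nR (by decide +kernel)

theorem ord5 : orderOf h5 = 5 := orderOf_ordW eR nR (by decide +kernel)

theorem card_R20 : Nat.card R20 ≤ 1 * 5 * 4 :=
  (Eqv.step eR (p := 4) (u := []) (us := [[1, 1]]) (by decide) (by decide +kernel)
    (Eqv.step eR (p := 5) (u := []) (us := []) (by decide) (by decide +kernel)
    (clo_nil R ▸ card_bot.le)))

theorem card_I5 : Nat.card I5 ≤ 120 := Eqv.card_cos eR (ts := IcT) (tb := IcB) (by decide +kernel) card_R20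

theorem card_Kl : Nat.card Kl ≤ 168 := Eqv.card_cos eR (ss := [[263], [259]]) (ts := KcT) (tb := KcB) (by decide +kernel) (c := 1 * 7 * 3)
  (Eqv.step eR (p := 3) (u := []) (us := [[1, 1]]) (by decide) (by decide +kernel)
    (Eqv.step eR (p := 7) (u := []) (us := []) (by decide) (by decide +kernel)
    (clo_nil R ▸ card_bot.le)))

theorem qm7 : centralizer {x7} = clo R SvT ∧ Nat.card (clo R SvT) = 7 * 120 ∧
    ∃ ψ : clo R SvT →* PG SvN, QM SvN 5 fSv SvC (clo R SvT) 7 ψ := by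
  have e : fSv 0 = x7 := rfl
  obtain ⟨-, h1, ψ, h2, -⟩ := exists_qm rSv (by decide) (m := 3) (by decide +kernel)
    (fun _ h => evs_eq_one (le_trans (by decide +kernel) h)) (evs_clo _) (Z := zpowers x7) (c := SvC)
    (zpowers_le.2 (e ▸ ev_single fSv 0 ▸ ev_mem_clo fSv (by decide +kernel))) (fun x hx i hi =>
      (zpowers_le.2 (e ▸ ev_single fSv 0 ▸ rSv.fixW hi (by revert i; decide +kernel)) : _ ≤ stabilizer L _) hx)
    (by rw [Nat.card_zpowers, ord7]) (s := 120) ((Eqv.step eR (u := []) (us := [[1], [3]]) (p := 7) (by decide)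
      (by decide +kernel) card_I5).trans_eq (mul_comm _ _)) (by decide +kernel)
  refine ⟨le_antisymm (not_not.1 fun h => ?_) (Eqv.com1 eR (by decide +kernel)), h1, ψ, h2⟩
  have := two_mul_card_le (Eqv.com1 eR (us := SvT) (by decide +kernel)) h
  rw [card_cent_of_ord (by norm_num) (not_sq_L (by decide)) pr7.1 ord7, h1] at this
  have := pr7.2
  omega

theorem card_c7 : Nat.card (centralizer {x7}) = 840 := qm7.1 ▸ qm7.2.1

theorem cent7 {a : List ℕ} {fw kg : List (List ℕ)} {T : Tr} {m : ℕ}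
    (h : stdOK SvN 5 3 SvC [a] [a] [] [] fw kg T m = true) : Nat.card ↥(clo R SvT ⊓ centralizer {ev fSv a}) ≤ 7 * m :=
  let ⟨_, q⟩ := qm7.2.2; q.cent1 (by decide) (by decide) h

theorem nc7 {a c : List ℕ} {fw kg : List (List ℕ)} {T : Tr}
    (h : stdOK SvN 5 3 SvC [a] [c] [] [] fw kg T 0 = true) : ∀ g ∈ clo R SvT, g * ev fSv a * g⁻¹ ≠ ev fSv c :=
  let ⟨_, q⟩ := qm7.2.2; q.nc1 (by decide) (by decide) h

theorem c7_le : centralizer {ev fSv [1]} ≤ clo R SvT := ev_single fSv 0 ▸ qm7.1.le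

theorem rat7 : Nat.card (normalizer (zpowers x7 : Set L)) = 3 * 840 ∧ ¬ IsConj x7 x7⁻¹ := by
  obtain ⟨h4, h5⟩ := rat_L (e := 3) (by norm_num) (by decide) ord7 card_c7 (by decide +kernel)
  refine ⟨h4, fun h => absurd ((h5 6 (by decide)).1 ?_) (by decide)⟩
  rwa [eq_inv_of_mul_eq_one_left (show x7 ^ 6 * x7 = 1 by rw [← pow_succ]; exact orderOf_dvd_iff_pow_eq_one.1 ord7.dvd)]

theorem I5_iso : Nonempty (I5 ≃* Equiv.Perm (Fin 5)) := by
  obtain ⟨_, _, D, g, h, -⟩ := hasReps_perm (nets := SvN) (k := 5) (m := 3) (by decide +kernel) (by decide +kernel)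
  obtain ⟨ψ, h1, -⟩ := exists_surj rSv h (by decide) (ws := [[3], [5]]) (A := I5) (cloS (by decide +kernel)) (c := SvI)
    (m := 120) (by decide +kernel) card_S5.le (by decide +kernel)
  exact equiv_of_surj ψ h1 (card_I5.trans card_S5.ge)

theorem idp7 : IsInternalDirectProduct (zpowers x7) I5 (centralizer {x7}) := by
  have e : zpowers x7 ⊔ I5 = centralizer {x7} := by rw [qm7.1, sup_comm]; exact (clo_cons _ _).symm
  refine ⟨e ▸ le_sup_left, e ▸ le_sup_right, fun a ha b hb => ?_, inf_eq_bot_of_prime (by norm_num) ord7 fun h => ?_, e⟩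
  · exact mem_centralizer_iff.1 (cent_zpowers x7 ▸ (e ▸ le_sup_right : I5 ≤ _) hb) a ha
  · have := card_c7
    rw [← e, sup_eq_right.2 (zpowers_le.2 h)] at this
    have := card_I5
    omega

/-! ### the element of order five -/

theorem ex5 : Exact (vD vFv) FvN fFv FvC (centralizer {h5}) :=
  exact_of_le rFv (by decide) (fun w _ => Eqv.com1 eR (by decide +kernel) (ev_clo _ w))
    ((card_cent_of_ord (by norm_num) (not_sq_L (by decide)) pr5.1 ord5).trans_le pr5.2) (by decide +kernel)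

theorem card_c5 : Nat.card (centralizer {h5}) = 6720 := ex5.card.trans (by decide +kernel)

theorem c5_eq : centralizer {h5} = clo R FvT :=
  le_antisymm (ex5.eq_clo.ge.trans (clo_le.2 fun w _ => ev_clo _ w)) (Eqv.com1 eR (by decide +kernel))

theorem ev5 (w : List ℕ) : ev fFv w ∈ centralizer {h5} := c5_eq ▸ ev_clo _ w

theorem cent5 {a : List ℕ} {fw kg : List (List ℕ)} {T : Tr} {m : ℕ}
    (h : stdOK FvN 140 8 FvC [a] [a] [] [] fw kg T m = true) :
    Nat.card ↥(centralizer {h5} ⊓ centralizer {ev fFv a} : Subgroup L) ≤ m :=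
  Bt.card_cent_le ex5 (by decide) (by decide) ex5.faithful le_rfl (ev5 a) (fun w _ => ev5 w) h

theorem nc5 {a c : List ℕ} {fw kg : List (List ℕ)} {T : Tr}
    (h : stdOK FvN 140 8 FvC [a] [c] [] [] fw kg T 0 = true) : ∀ g ∈ centralizer {h5}, g * ev fFv a * g⁻¹ ≠ ev fFv c :=
  fun _ hg => Bt.not_conj ex5 (by decide) (by decide) ex5.faithful le_rfl (ev5 c) (fun w _ => ev5 w) h hg

theorem c5_le : centralizer {ev fFv [5]} ≤ centralizer {h5} := 
  (congrArg (fun x => centralizer {x}) (evS (T := FvT) (w := [5]) (by decide +kernel))).le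

theorem rat5 : Nat.card (normalizer (zpowers h5 : Set L)) = 4 * 6720 :=
  (rat_L (by norm_num) (by decide) ord5 card_c5 (by decide +kernel)).1

theorem h5_not : h5 ∉ H := fun h => rSv.not_fixW (w := [3]) (b := 0) (by decide) (by decide +kernel) (by
  rw [pt0 vSv (by decide +kernel), ev_single fSv 1]
  exact (stab_e0 ▸ h : h5 ∈ stabilizer L e0))

theorem idp5 : IsInternalDirectProduct (zpowers h5) J7 (centralizer {h5}) := by
  have e : zpowers h5 ⊔ J7 = centralizer {h5} := by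
    rw [c5_eq, sup_comm, ← clo_cons]
    exact le_antisymm (clo_mono (by decide +kernel)) (clo_mono (by decide +kernel))
  refine ⟨e ▸ le_sup_left, e ▸ le_sup_right, fun a ha b hb => ?_, inf_eq_bot_of_prime (by norm_num) ord5 fun h =>
    h5_not (clo_H (by decide +kernel) h), e⟩
  exact mem_centralizer_iff.1 (cent_zpowers h5 ▸ (e ▸ le_sup_right : J7 ≤ _) hb) a ha

theorem R20_spec : zpowers h5 ≤ R20 ∧ R20 ≤ normalizer (zpowers h5 : Set L) ∧ Nat.card R20 = 20 ∧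
    R20 ⊓ centralizer {h5} = zpowers h5 := by
  have h1 : zpowers h5 ≤ R20 := zpowers_le.2 (ev_mem_clo R (by decide))
  have h2 : 4 * Nat.card ↥(R20 ⊓ centralizer {h5}) ≤ _ := Eqv.cj eR nR (x := [285]) (l := [([], [285]), ([303], [285, 285]), ([303, 303], [285, 285, 285, 285]), ([303, 303, 303], [285, 285, 285])]) (by decide +kernel)
    (A := R20) fun q hq => ev_mem_clo_of_wordIn (by revert q; decide +kernel)
  have h3 : zpowers h5 ≤ R20 ⊓ centralizer {h5} := le_inf h1 (zpowers_le.2 (mem_centralizer_singleton_iff.2 rfl))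
  have h4 := card_le_of_le h3
  have h6 := card_R20
  rw [Nat.card_zpowers, ord5] at h4
  refine ⟨h1, clo_single (f := R) _ ▸ Eqv.nrmAll eR (us := [[[1, 1]], [[1]]]) (by decide +kernel), by omega,
    (Comp.eq_of_le_of_card_le h3 ?_).symm⟩
  rw [Nat.card_zpowers, ord5]
  omega

/-! ### the action on the elementary abelian group of order eight -/

/-- generators of the normaliser -/
noncomputable abbrev fN : ℕ → L := evs R TN

theorem pcZ : Pc R 2 [[7], [269], [271]] := eR.pc (c := [([], [[1], [3]]), ([], [[1]]), ([], [])]) (by decide +kernel)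

theorem card_Z3 : Nat.card Z3 = 8 := le_antisymm (pcZ.card_le two_ne_zero)
  (Nev.card_ge nR (l := [[], [7], [269], [7, 269], [271], [7, 271], [269, 271], [7, 269, 271]]) (by decide +kernel) fun w hw =>
    ev_mem_clo_of_wordIn (by revert w; decide +kernel))

theorem Z3_comm : Z3 ≤ centralizer (Z3 : Set L) := eR.comAll (by decide +kernel)

theorem Z3_sq : ∀ x ∈ Z3, x ^ 2 = 1 := eR.pow_eq_one (by decide +kernel) (by decide +kernel)

/-- the group `SL₃(2)` -/
abbrev SL3 : Type := Matrix.SpecialLinearGroup (Fin 3) (ZMod 2)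

theorem exists_ψ7 {ws : List (List ℕ)} {c : List Lvl} (hc : lall (wordIn ws) (cgens c) = true)
    (ok : (Bool.rec false (Nat.ble 168 (chainProd ZcN 7 c)) (chainOK ZcN 7 c) : Bool) = true) {A : Subgroup L}
    (hA : clo fN ws = A) : ∃ ψ : A →* SL3, Function.Surjective ψ ∧ ∀ x, ψ x = 1 ↔ x.1 ∈ centralizer (Z3 : Set L) := by
  obtain ⟨D, h1, h2⟩ := exists_cdom eR nR (ps := [[7], [269], [7, 269], [271], [7, 271], [269, 271], [7, 269, 271]]) (n := 7) (nets := ZcN) (T := TN)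
    (m := 22) (by decide +kernel)
  obtain ⟨_, _, D', g, h, -⟩ := hasReps_slVec (d := 3) (m := 7) (k := 22) (vt := [1, 2, 3, 4, 5, 6, 7])
    (Ms := [[6, 4, 1], [4, 2, 1], [4, 2, 1], [1, 2, 4], [1, 2, 4], [1, 2, 4], [2, 3, 6], [1, 2, 4], [1, 2, 4], [1, 2, 4], [1, 2, 4], [1, 2, 4], [1, 2, 4], [1, 2, 4], [1, 2, 4], [1, 2, 4], [1, 2, 4], [1, 2, 4], [1, 2, 4], [1, 2, 4], [1, 2, 4], [1, 2, 4]]) (nets := ZcN) (by decide +kernel)
  obtain ⟨ψ, a1, a2, -⟩ := exists_surj h1 h (by decide) hA hc card_SL3.le ok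
  refine ⟨ψ, a1, fun x => (a2 x).trans ⟨fun e => ?_, fun e i hi => ?_⟩⟩
  · have k : ∀ i < 7, ev R (nth [] [[7], [269], [7, 269], [271], [7, 271], [269, 271], [7, 269, 271]] i) ∈ centralizer {x.1} := fun i hi =>
      mem_centralizer_singleton_iff.2 (mul_inv_eq_iff_eq_mul.1 (h2 i ▸ (e i hi : x.1 * (D.pt i).v * x.1⁻¹ = (D.pt i).v))).symm
    refine le_centralizer_iff.1 (cent_zpowers x.1 ▸ clo_le.2 ?_) (mem_zpowers _)
    simpa only [List.forall_mem_cons, List.not_mem_nil, false_imp_iff, implies_true, and_true] using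
      ⟨k 0 (by decide), k 1 (by decide), k 3 (by decide)⟩
  · show x.1 * (D.pt i).v * x.1⁻¹ = (D.pt i).v
    rw [h2, mul_inv_eq_iff_eq_mul]
    exact (mem_centralizer_iff.1 e _ (ev_mem_clo_of_wordIn (by revert i; decide +kernel))).symm

theorem Kl_iso : Nonempty (Kl ≃* SL3) :=
  let ⟨ψ, h, _⟩ := exists_ψ7 (ws := [[1], [3]]) (c := ZcK) (by decide +kernel) (by decide +kernel) (cloS (by decide +kernel))
  equiv_of_surj ψ h (card_Kl.trans card_SL3.ge)

theorem Z3_J7 : Z3 ≤ J7 := eR.memAll (us := [[4, 1, 4, 1, 4, 1], [4, 1, 4, 1, 3, 1], [2, 2, 3, 3, 1, 1]]) (by decide +kernel)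

theorem y8_J7 : ev R [325] ∈ J7 := eR.memAll (vs := [[325]]) (us := [[1, 1, 3, 1, 1]]) (by decide +kernel)
  (ev_mem_clo R List.mem_cons_self)

theorem y8_pow : ev R [325] ^ 4 = s := (Eqv.pow eR (by decide +kernel)).trans Rs

theorem s_Z3 : s ∈ Z3 := Rs ▸ ev_mem_clo R List.mem_cons_self

theorem y8_ns {e : L} (h : e ∈ Z3) : (e * ev R [325]) ^ 4 ≠ 1 := by
  obtain ⟨w, rfl, hw⟩ := pcZ.all two_ne_zero (Φ := fun w => neR (wpow (lapp w [325]) 4) []) (by decide +kernel) e h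
  rw [← ev_lapp, ← ev_wpow]
  exact nR _ _ hw

theorem J7_spec : ∃ ψ : J7 →* SL3, Function.Surjective ψ ∧ ∀ x, ψ x = 1 ↔ x.1 ∈ Z3 := by
  obtain ⟨ψ, h1, h2⟩ := exists_ψ7 (ws := [[1], [5]]) (c := ZcJ) (by decide +kernel) (by decide +kernel) (A := J7)
    (cloS (by decide +kernel))
  have h3 := card_mul_le_sup idp5.2.2.2.1
  rw [idp5.2.2.2.2, card_c5, Nat.card_zpowers, ord5, card_ker_mul ψ h1, card_SL3] at h3
  have := ker_eq_of_card Z3_J7 (fun x hx => (h2 x).2 (Z3_comm hx)) (by rw [card_Z3]; omega)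
  exact ⟨ψ, h1, fun x => by rw [← MonoidHom.mem_ker, this, mem_subgroupOf]⟩

/-! ### classes -/

theorem c14A : CB (ev fSv [1, 5]) 14 84 ∧ ev fSv [1, 5] ^ 8 = ev fSv [1] :=
  cb_of (Eqv.sb eR _) (Nev.sb nR _) (by decide +kernel) c7_le (cent7 (fw := c14AbF) (kg := c14AbK) (T := c14Ab) (m := 12) (by decide +kernel))

theorem c14C : CB (ev fSv [1, 5, 3, 5, 3]) 14 56 ∧ ev fSv [1, 5, 3, 5, 3] ^ 8 = ev fSv [1] :=
  cb_of (Eqv.sb eR _) (Nev.sb nR _) (by decide +kernel) c7_le (cent7 (fw := c14CbF) (kg := c14CbK) (T := c14Cb) (m := 8) (by decide +kernel))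

theorem c21 : CB (ev fSv [1, 5, 4, 5, 3]) 21 42 ∧ ev fSv [1, 5, 4, 5, 3] ^ 15 = ev fSv [1] :=
  cb_of (Eqv.sb eR _) (Nev.sb nR _) (by decide +kernel) c7_le (cent7 (fw := c21bF) (kg := c21bK) (T := c21b) (m := 6) (by decide +kernel))

theorem c28 : CB (ev fSv [1, 5, 3]) 28 28 ∧ ev fSv [1, 5, 3] ^ 8 = ev fSv [1] :=
  cb_of (Eqv.sb eR _) (Nev.sb nR _) (by decide +kernel) c7_le (cent7 (fw := c28bF) (kg := c28bK) (T := c28b) (m := 4) (by decide +kernel))

theorem c35 : CB (ev fSv [1, 3]) 35 35 ∧ ev fSv [1, 3] ^ 15 = ev fSv [1] :=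
  cb_of (Eqv.sb eR _) (Nev.sb nR _) (by decide +kernel) c7_le (cent7 (fw := c35bF) (kg := c35bK) (T := c35b) (m := 5) (by decide +kernel))

theorem c42 : CB (ev fSv [1, 5, 3, 3]) 42 42 ∧ ev fSv [1, 5, 3, 3] ^ 36 = ev fSv [1] :=
  cb_of (Eqv.sb eR _) (Nev.sb nR _) (by decide +kernel) c7_le (cent7 (fw := c42bF) (kg := c42bK) (T := c42b) (m := 6) (by decide +kernel))

theorem n14 : ¬ IsConj (ev fSv [1, 5]) (ev fSv [1, 5, 3, 5, 3]) :=
  nc_of_cent c14A.2 c14C.2 c7_le (nc7 (fw := n14bF) (kg := n14bK) (T := n14b) (by decide +kernel))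

theorem c10A : CB (ev fFv [5, 3, 3]) 10 960 ∧ ev fFv [5, 3, 3] ^ 6 = ev fFv [5] :=
  cb_of (Eqv.sb eR _) (Nev.sb nR _) (by decide +kernel) c5_le (cent5 (fw := c10AbF) (kg := c10AbK) (T := c10Ab) (m := 960) (by decide +kernel))

theorem c10B : CB (ev fFv [5, 3, 1, 4, 1, 1]) 10 80 ∧ ev fFv [5, 3, 1, 4, 1, 1] ^ 6 = ev fFv [5] :=
  cb_of (Eqv.sb eR _) (Nev.sb nR _) (by decide +kernel) c5_le (cent5 (fw := c10BbF) (kg := c10BbK) (T := c10Bb) (m := 80) (by decide +kernel))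

theorem c15 : CB (ev fFv [5, 3, 1]) 15 30 ∧ ev fFv [5, 3, 1] ^ 6 = ev fFv [5] :=
  cb_of (Eqv.sb eR _) (Nev.sb nR _) (by decide +kernel) c5_le (cent5 (fw := c15bF) (kg := c15bK) (T := c15b) (m := 30) (by decide +kernel))

theorem c20A : CB (ev fFv [5, 3]) 20 160 ∧ ev fFv [5, 3] ^ 16 = ev fFv [5] :=
  cb_of (Eqv.sb eR _) (Nev.sb nR _) (by decide +kernel) c5_le (cent5 (fw := c20AbF) (kg := c20AbK) (T := c20Ab) (m := 160) (by decide +kernel))

theorem c20B : CB (ev fFv [5, 4, 1, 3, 1, 1]) 20 160 ∧ ev fFv [5, 4, 1, 3, 1, 1] ^ 16 = ev fFv [5] :=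
  cb_of (Eqv.sb eR _) (Nev.sb nR _) (by decide +kernel) c5_le (cent5 (fw := c20BbF) (kg := c20BbK) (T := c20Bb) (m := 160) (by decide +kernel))

theorem c30 : CB (ev fFv [5, 4, 1]) 30 30 ∧ ev fFv [5, 4, 1] ^ 6 = ev fFv [5] :=
  cb_of (Eqv.sb eR _) (Nev.sb nR _) (by decide +kernel) c5_le (cent5 (fw := c30bF) (kg := c30bK) (T := c30b) (m := 30) (by decide +kernel))

theorem c40A : CB (ev fFv [5, 3, 1, 1, 1]) 40 40 ∧ ev fFv [5, 3, 1, 1, 1] ^ 16 = ev fFv [5] :=
  cb_of (Eqv.sb eR _) (Nev.sb nR _) (by decide +kernel) c5_le (cent5 (fw := c40AbF) (kg := c40AbK) (T := c40Ab) (m := 40) (by decide +kernel))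

theorem c40B : CB (ev fFv [5, 4, 1, 1, 1]) 40 40 ∧ ev fFv [5, 4, 1, 1, 1] ^ 16 = ev fFv [5] :=
  cb_of (Eqv.sb eR _) (Nev.sb nR _) (by decide +kernel) c5_le (cent5 (fw := c40BbF) (kg := c40BbK) (T := c40Bb) (m := 40) (by decide +kernel))

theorem n10 : ¬ IsConj (ev fFv [5, 3, 3]) (ev fFv [5, 3, 1, 4, 1, 1]) :=
  nc_of_cent c10A.2 c10B.2 c5_le (nc5 (fw := n10bF) (kg := n10bK) (T := n10b) (by decide +kernel))

theorem n20 : ¬ IsConj (ev fFv [5, 3]) (ev fFv [5, 4, 1, 3, 1, 1]) :=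
  nc_of_cent c20A.2 c20B.2 c5_le (nc5 (fw := n20bF) (kg := n20bK) (T := n20b) (by decide +kernel))

theorem n40 : ¬ IsConj (ev fFv [5, 3, 1, 1, 1]) (ev fFv [5, 4, 1, 1, 1]) :=
  nc_of_cent c40A.2 c40B.2 c5_le (nc5 (fw := n40bF) (kg := n40bK) (T := n40b) (by decide +kernel))

theorem nc7' : ¬ IsConj (ev fSv [1]) (ev fSv [1])⁻¹ := ev_single fSv 0 ▸ rat7.2

theorem b5 : Blk L 5 [6720] := blk1 ⟨ord5, card_c5.le⟩
theorem b7 : Blk L 7 [840, 840] := blkI ⟨⟨ord7, card_c7.le⟩, pow_one _⟩ rat7.2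
theorem b10 : Blk L 10 [960, 80] := blk2 c10A.1 c10B.1 n10
theorem b14 : Blk L 14 [84, 84, 56, 56] := blkI2 c14A c14C nc7' n14
theorem b15 : Blk L 15 [30] := blk1 c15.1
theorem b20 : Blk L 20 [160, 160] := blk2 c20A.1 c20B.1 n20
theorem b21 : Blk L 21 [42, 42] := blkI c21 nc7'
theorem b28 : Blk L 28 [28, 28] := blkI c28 nc7'
theorem b30 : Blk L 30 [30] := blk1 c30.1
theorem b35 : Blk L 35 [35, 35] := blkI c35 nc7'
theorem b40 : Blk L 40 [40, 40] := blk2 c40A.1 c40B.1 n40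
theorem b42 : Blk L 42 [42, 42] := blkI c42 nc7'

theorem prime_comap {G : Type*} [Group G] [Finite G] (e : G ≃* L) {p m : ℕ} (hp : p.Prime)
    (h : 86775571046077562880 = p ^ 1 * m) (hm : ¬ p ∣ m) {x : L} (hx : orderOf x = p) {Q : Subgroup G}
    (hQ : Nat.card Q = p) : ∃ e : G ≃* L, Q = (zpowers x).comap e.toMonoidHom :=
  have := Fact.mk hp
  sylow_eq_comap (by rw [Nat.card_zpowers, hx, pow_one]) (card_L.trans h) hm e (Sylow.ofCard Q (by
    rw [factorization_eq hp ((Nat.card_congr e.toEquiv).trans (card_L.trans h)) hm, hQ, pow_one]))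

end CF.J4F
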