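import Cfsg.Agent.Dce.J4.Main
import Cfsg.Agent.Bt.Cent

/-! Fixed points of elements of `M₂₄` on the cosets of `2 ^ 11 : M₂₄` in the fourth Janko group. -/

set_option autoImplicit false
set_option maxRecDepth 1000000
set_option maxHeartbeats 400000
set_option Elab.async false

namespace CF.J4F
open CF.Comp CF.Bt CF.Dce CF.Dce.J4 MulAction

/-- a digit -/
noncomputable def dg (v i : Nat) : Nat := Nat.land (Nat.shiftRight v (Nat.mul (nat_lit 5) i)) (nat_lit 31)

/-- the product of two permutations of 24 points -/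
noncomputable def pm (x y : Nat) : Nat :=
  Nat.rec (motive := fun _ => Nat) (nat_lit 0)
    (fun i r => Nat.add r (Nat.shiftLeft (dg x (dg y i)) (Nat.mul (nat_lit 5) i))) (nat_lit 24)

/-- the identity -/
noncomputable def p1 : Nat := nat_lit 0xbdab49ca307b9ac5a928398a418820

/-- iteration -/
noncomputable def it (v q i : Nat) : Nat := Nat.rec (motive := fun _ => Nat) i (fun _ r => force r (dg v)) q

/-- the power `q` is trivial, the element is not, and there is no fixed point if `ff` -/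
noncomputable def tst (q : Nat) (ff : Bool) (v : Nat) : Bool :=
  Bool.rec (allFrom (fun i => Bool.rec false (Bool.rec true (Bool.rec true false (Nat.beq (dg v i) i)) ff)
    (Nat.beq (it v q i) i)) (nat_lit 0) (nat_lit 24)) false (Nat.beq v p1)

theorem dg_eq (v i : ℕ) : dg v i = fld 5 v i := by
  rw [dg, fld, ← Nat.and_two_pow_sub_one_eq_mod]; rfl

theorem dg_pm (x y : ℕ) {i : ℕ} (hi : i < 24) : dg (pm x y) i = dg x (dg y i) := by
  have : ∀ m, (Nat.rec (motive := fun _ => ℕ) (nat_lit 0) (fun i r => Nat.add r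
      (Nat.shiftLeft (dg x (dg y i)) (Nat.mul (nat_lit 5) i))) m : ℕ) = pk 5 m fun i => dg x (dg y i) := fun m => by
    induction m with
    | zero => rfl
    | succ m ih =>
      rw [pk, Finset.sum_range_succ, ← pk, ← ih, ← shl_eq]
      rfl
  have e : pm x y = pk 5 24 fun i => dg x (dg y i) := this 24
  rw [e, dg_eq, fld_pk (by decide) (fun k _ => by rw [dg_eq]; exact fld_lt _ _ _) hi]

theorem dg_p1 : ∀ i < 24, dg p1 i = i := by decide +kernel

section
variable {G Ω : Type*} [Group G] [MulAction G Ω] {D : Dom Ω 24} {nets : List Net} {f : ℕ → G}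

/-- the digits describe the action -/
def Rd (D : Dom Ω 24) (v : ℕ) (a : G) : Prop := ∀ i < 24, dg v i < 24 ∧ a • D.pt i = D.pt (dg v i)

/-- the property that is counted -/
def Pq {n : ℕ} (D : Dom Ω n) (q : ℕ) (ff : Bool) (a : G) : Prop :=
  a ^ q = 1 ∧ (ff = true → ∀ p ∈ D.set (full n), a • p ≠ p) ∧ ∃ p ∈ D.set (full n), a • p ≠ p

theorem Rd.one : Rd D p1 (1 : G) := fun i hi => by rw [dg_p1 i hi, one_smul]; exact ⟨hi, rfl⟩

theorem Rd.mul {x y : ℕ} {a b : G} (h : Rd D x a) (h' : Rd D y b) : Rd D (pm x y) (a * b) := fun i hi => by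
  rw [dg_pm x y hi, mul_smul, (h' i hi).2]
  exact h _ (h' i hi).1

theorem Rd.it {v : ℕ} {a : G} (h : Rd D v a) (q : ℕ) {i : ℕ} (hi : i < 24) :
    it v q i < 24 ∧ a ^ q • D.pt i = D.pt (it v q i) := by
  induction q with
  | zero => exact ⟨hi, by rw [pow_zero, one_smul]; rfl⟩
  | succ q ih =>
    have : J4F.it v (q + 1) i = dg v (J4F.it v q i) := force_eq _ _
    rw [this, pow_succ', mul_smul, ih.2]
    exact h _ ih.1

theorem Rd.tst {v q : ℕ} {ff : Bool} {a : G} (h : Rd D v a) (hP : Pq D q ff a) : tst q ff v = true := by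
  obtain ⟨h1, h2, p, hp, h3⟩ := hP
  obtain ⟨j, hj, rfl⟩ := Dom.mem_set_full.1 hp
  refine brec_not_and.2 ⟨beq_false_iff.2 fun e => h3 (by rw [(h j hj).2, e, dg_p1 j hj]),
    allFrom_zero.2 fun i hi => brec_and.2 ⟨beq_iff.2 (D.inj _ (h.it q hi).1 _ hi ?_), brec_imp.2 fun e => ?_⟩⟩
  · rw [← (h.it q hi).2, h1, one_smul]
  · refine brec_not_and.2 ⟨beq_false_iff.2 fun e' => h2 e _ (Dom.mem_set_full.2 ⟨i, hi, rfl⟩) ?_, rfl⟩
    rw [(h i hi).2, e']

theorem Pq.conj {n q : ℕ} {D : Dom Ω n} {ff : Bool} {a k : G} (h : Pq D q ff a)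
    (hk : ∀ p ∈ D.set (full n), k • p ∈ D.set (full n)) (hk' : ∀ p ∈ D.set (full n), k⁻¹ • p ∈ D.set (full n)) :
    Pq D q ff (k⁻¹ * a * k) := by
  obtain ⟨h1, h2, p, hp, h3⟩ := h
  refine ⟨?_, fun e p hp e' => h2 e _ (hk p hp) ?_, _, hk' p hp, fun e => h3 ?_⟩
  · have := conj_pow (i := q) (a := k⁻¹) (b := a)
    rwa [h1, mul_one, mul_inv_cancel, inv_inv] at this
  · rwa [mul_smul, mul_smul, inv_smul_eq_iff] at e'
  · rwa [mul_smul, mul_smul, smul_inv_smul, smul_left_cancel_iff] at e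

/-- the letters as numbers -/
noncomputable def letD (nets : List Net) (E : ℕ → ℕ) (m : ℕ) : Bool :=
  allFrom (fun x => allFrom (fun i => Nat.beq (dg (E x) i) (appW nets [x] i)) (nat_lit 0) (nat_lit 24))
    (nat_lit 0) (Nat.succ (Nat.mul (nat_lit 2) m))

theorem rd_cut (hR : Reps D nets f) {E : ℕ → ℕ} {m : ℕ} (h : letD nets E m = true) (x : ℕ) :
    Rd D (cut m p1 E x) (evL (trunc f m) x) := by
  unfold cut
  cases e : Nat.ble x (Nat.mul (nat_lit 2) m)
  · have h1 : 2 * m < x := ble_false_iff.1 e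
    have : evL (trunc f m) x = 1 := by
      rcases letter_cases x with rfl | ⟨i, rfl⟩ | ⟨i, rfl⟩
      · omega
      · rw [evL_odd, trunc_one _ _ _ (by omega)]
      · rw [evL_even, trunc_one _ _ _ (by omega), inv_one]
    exact this ▸ Rd.one
  · have h1 : x ≤ 2 * m := ble_iff.1 e
    rw [evL_congr (f := trunc f m) (g := f) (m := m) (fun _ hi => if_pos hi) h1]
    intro i hi
    have h2 := beq_iff.1 (allFrom_zero.1 (allFrom_zero.1 h x (Nat.lt_succ_of_le h1)) i hi)
    have h3 := hR.smul_pt [x] hi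
    rw [ev_cons, ev_nil, mul_one] at h3
    change dg (E x) i < 24 ∧ _ = D.pt (dg (E x) i)
    rw [h2]
    exact ⟨hR.appW_lt _ hi, h3⟩

/-- a node whose group is the stabiliser of a point of a transitive domain -/
theorem big_le {n k r y : ℕ} {D : Dom Ω n} (hR : Reps D nets f) (hn : n < 16777215) (hk : n ≤ 2 ^ k)
    {K : Subgroup G} [Finite K] {ks ws : List (List ℕ)} (hK : K = clo f ks) (hA : clo f ws ≤ K) (hy : y < n)
    (h1 : Nat.beq (pop n (orb nets ks r (Nat.shiftLeft (nat_lit 1) y))) n = true)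
    (h2 : lall (fixW nets y) ws = true) (h3 : Nat.card K ≤ n * Nat.card (clo f ws)) {w : List ℕ}
    (hw : ev f w ∈ K) : {k | k ∈ K ∧ k⁻¹ * ev f w * k ∈ clo f ws}.ncard ≤
      pop n (fixS nets n k w) * Nat.card (clo f ws) := by
  have h4 : clo f ws ≤ stabIn K (D.pt y) :=
    le_inf hA (clo_le.2 fun w hw => hR.fixW hy (lall_iff.1 h2 w hw))
  have h5 := card_stabIn_le (H := K) (x := D.pt y) (S := D.set (orb nets ks r (Nat.shiftLeft (nat_lit 1) y)))
    (fun p hp => hR.exists_of_mem_orb_pt (fun w hw => hK ▸ ev_mem_clo f hw) hy hp)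
    ((hR.ncard_orb hn ks r hy).trans (beq_iff.1 h1)).ge (by omega) h3
  rw [eq_of_le_of_card_le h4 h5, ← ncard_fixS hR hn hk]
  refine ncard_conj_stab K _ hw (D.set_finite _) ?_
  rintro _ ⟨g, hg, rfl⟩
  exact hR.smul_full (clo_le_closure f ks (hK ▸ hg)) (Dom.mem_set_full.2 ⟨y, hy, rfl⟩)

end

/-- the letters -/
noncomputable def E24 : Nat → Nat := nth (nat_lit 0) [p1, nat_lit 0x49e6aaba116c9e21d2e4b04085b0c5, nat_lit 0x49e6aaba116c9e21d2e4b04085b0c5, nat_lit 0x2ea4b08f1a39ac98e4885caf0a546, nat_lit 0x34eaf5a607239acb0448880b454877]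

theorem let24 : letD N0 E24 2 = true := by decide +kernel

/-- the bound for the fixed points in an orbit -/
noncomputable def fxd (w : List Nat) (c : Nat) (ms : List Nat) (d : Nd) : Nat :=
  Bool.rec (Bool.rec (Nat.div (Nat.mul (nth (nat_lit 0) ms d.i) c) (nth (nat_lit 0) cO d.i))
    (pop (nat_lit 1771) (fixS NS (nat_lit 1771) (nat_lit 11) w)) (Nat.beq d.i (nat_lit 26)))
    (pop (nat_lit 3795) (fixS NT (nat_lit 3795) (nat_lit 12) w)) (Nat.beq d.i (nat_lit 1))

/-- the count in a node -/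
noncomputable def cnt (q : Nat) (ff : Bool) (ms : List Nat) (d : Nd) : Bool :=
  Bool.rec (Bool.rec (Bool.rec true
    (cntOK pm p1 (cut (nat_lit 2) p1 E24) (tst q ff) N0 (subC d.ws (nth [] cC d.i)) (nth [] cT d.i)
      (nth (nat_lit 0) ms d.i)) (Nat.beq (Nat.mod (nth (nat_lit 0) cO d.i) q) (nat_lit 0)))
    (lall (fixW NS (nat_lit 588)) d.ws) (Nat.beq d.i (nat_lit 26)))
    (lall (fixW NT (nat_lit 0)) d.ws) (Nat.beq d.i (nat_lit 1))

/-- the element itself -/
noncomputable def eltOK (w : List Nat) (q : Nat) (ff : Bool) (j : Nat) : Bool :=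
  lall (fun b => b) [lowW (nat_lit 2) w, wordIn H1 w, idW N0 (nat_lit 24) (nat_lit 5) (wpow w q),
    Bool.rec true (Nat.beq (fixS N0 (nat_lit 24) (nat_lit 5) w) (nat_lit 0)) ff,
    Bool.rec true false (fixW N0 j w), Nat.ble j (nat_lit 23)]

theorem orbT : Nat.beq (pop 3795 (orb NT H1 32 (Nat.shiftLeft (nat_lit 1) 0))) 3795 = true := by decide +kernel

theorem orbS : Nat.beq (pop 1771 (orb NS H1 40 (Nat.shiftLeft (nat_lit 1) 588))) 1771 = true := by
  decide +kernel

theorem cent_K_le {w : List ℕ} (hw : lowW 2 w = true) {fw kg : List (List ℕ)} {T : Tr} {c : ℕ}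
    (h : stdOK (lapp N0 N1) 24 5 CK [w] [w] [] [] fw kg T c = true) :
    Nat.card ↥(K ⊓ Subgroup.centralizer {ev γ w}) ≤ c := by
  have hm : ∀ w, ev (slp (trunc γ 2) W1 2) w ∈ K := ev_mem (slp_mem mem0 _ _)
  have := Bt.card_cent_le exact (by decide) (k := 5) (by decide) exact.faithful le_rfl (hm w)
    (fun _ _ => hm _) h
  rwa [ev_slp_low _ _ hw, ev_congr (f := trunc γ 2) (g := γ) (fun _ hi => if_pos hi) (lowW_iff.1 hw)] at this

theorem fix_le {w : List ℕ} {q j c m : ℕ} {ff : Bool} {ms : List ℕ} (hq : q.Prime) (h0 : eltOK w q ff j = true)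
    (hc : Nat.card ↥(K ⊓ Subgroup.centralizer {ev γ w}) ≤ c) (h1 : lall (cnt q ff ms) cnds = true)
    (h2 : 1 + (cnds.map (fxd w c ms)).sum ≤ m) : {p : L ⧸ H | ev b w • p = p}.ncard ≤ m := by
  obtain ⟨g, h, hs⟩ := cov
  have hr := sub0 rels_b
  simp only [eltOK, lall_iff (f := fun b => b), List.forall_mem_cons] at h0
  obtain ⟨a1, a2, a3, a4, a5, a6, -⟩ := h0
  have hx : ev γ w ∈ K := ev_mem_clo_of_wordIn a2
  have e : ∀ w, ψ hr (ev γ w) = ev b w := fun w => by rw [map_ev, ψ_γ]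
  have hP : Pq D q ff (ev γ w) := by
    refine ⟨?_, fun e p hp e' => ?_, _, Dom.mem_set_full.2 ⟨j, Nat.lt_succ_of_le (ble_iff.1 a6), rfl⟩,
      reps0.not_fixW (Nat.lt_succ_of_le (ble_iff.1 a6)) (brec_not_and.1 a5).1⟩
    · rw [← ev_wpow]
      exact reps0.eq_one_of_idW Mat.k5 exact.faithful (ev_wpow γ w q ▸ K.pow_mem hx q) a3
    · have := set_fixS reps0 Mat.k5 w
      rw [beq_iff.1 (brec_imp.1 a4 e), set_zero] at this
      exact (this ▸ ⟨hp, e'⟩ : p ∈ (∅ : Set _))
  refine (h.ncard_le H1_le {p | ev b w • p = p} (fxd w c ms) fun d hd =>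
    ⟨(orbIn_finite _ _).inter_of_right _, ?_⟩).2.trans h2
  have h1 := lall_iff.1 h1 d hd
  obtain ⟨-, h2, h3⟩ := ndOK_iff.1 (lall_iff.1 nds_ord d hd)
  have h5 := (brec_and.1 h2).1
  have h6 := le_card h2
  have h0 : 0 < nth 0 cO d.i := Nat.pos_of_ne_zero fun e => by simp [e] at h3
  obtain ⟨h7, h8⟩ := ncard_fix (ψ hr) (le_K h5) (y := pt H g d) (s := sz cO d)
    (fun a ha => (clo_le (H := (stabilizer L _).comap (ψ hr))).2
      (fun w hw => Subgroup.mem_comap.2 (e w ▸ h.fix d hd w hw)) ha) (by rw [map_K]; exact hs d hd)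
    (by rw [card_K, ← h3]; exact Nat.mul_le_mul_left _ h6)
  have h9 : Nat.card (clo γ d.ws) = nth 0 cO d.i := by
    rw [card_K, ← h3] at h7
    exact (Nat.eq_of_mul_eq_mul_left (Nat.pos_of_ne_zero fun h => by simp [h] at h3) h7).symm
  have := finite_of_le (le_K h5)
  have h10 := h8 _ hx
  rw [e, map_K hr] at h10
  unfold cnt at h1
  unfold fxd
  cases i1 : Nat.beq d.i (nat_lit 1)
  swap
  · rw [i1] at h1
    refine Nat.le_of_mul_le_mul_right (h10 ▸ big_le repsT (by decide) (by decide) rfl (le_K h5) (by decide)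
      orbT h1 ?_ hx) Nat.card_pos
    rw [h9, beq_iff.1 i1, card_K]; decide +kernel
  rw [i1] at h1
  cases i2 : Nat.beq d.i (nat_lit 26)
  swap
  · rw [i2] at h1
    refine Nat.le_of_mul_le_mul_right (h10 ▸ big_le repsS (by decide) (by decide) rfl (le_K h5) (by decide)
      orbS h1 ?_ hx) Nat.card_pos
    rw [h9, beq_iff.1 i2, card_K]; decide +kernel
  rw [i2] at h1
  change _ ≤ nth 0 ms d.i * c / nth 0 cO d.i
  rw [Nat.le_div_iff_mul_le h0, ← h9, ← h10]
  refine ncard_conj_le (P := Pq D q ff) (le_K h5) (fun k hk => hP.conj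
    (fun _ => reps0.smul_full (clo_le_closure _ _ hk)) fun _ => reps0.smul_full (clo_le_closure _ _ (K.inv_mem hk)))
    ?_ hc
  cases i3 : Nat.beq (Nat.mod (nth (nat_lit 0) cO d.i) q) (nat_lit 0)
  · rw [Set.eq_empty_of_forall_notMem (s := {a | _}) fun a ha => ?_, Set.ncard_empty]
    · exact Nat.zero_le _
    · have := Fact.mk hq
      obtain ⟨p, -, hp⟩ := ha.2.2.2
      have := Subgroup.orderOf_dvd_natCard _ ha.1
      rw [orderOf_eq_prime ha.2.1 (fun e => hp (e ▸ one_smul _ _)), h9] at this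
      exact beq_false_iff.1 i3 (Nat.mod_eq_zero_of_dvd this)
  · rw [i3] at h1
    exact ncard_le_of_cntOK (Rp := Rd D) Rd.one Rd.mul (rd_cut reps0 let24) (fun _ _ => Rd.tst)
      (exact_of_le (reps0.trunc rfl) (by decide) (clo_trunc γ h5 ▸ mem_cgens_subC _) h9.le (brec_and.1 h2).2) h1

/-- the centraliser moves the trivial coset to fixed points -/
theorem cent_le_fix {G : Type*} [Group G] [Finite G] {H : Subgroup G} {x y g : G} (e : g * x * g⁻¹ = y) (hy : y ∈ H)
    {m c : ℕ} (h : {p : G ⧸ H | x • p = p}.ncard ≤ m) (hc : Nat.card ↥(H ⊓ Subgroup.centralizer {y}) ≤ c) :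
    Nat.card (Subgroup.centralizer {y}) ≤ m * c := by
  have h1 := fix_ncard_conj (T := (Set.univ : Set (G ⧸ H))) g x (by simp)
  simp only [Set.mem_univ, true_and, e] at h1
  refine (card_le_step (x := ((1 : G) : G ⧸ H)) (Set.toFinite _) (h1.trans_le h) (fun u hu => ?_) ?_).2
  · change y • u • _ = _
    rw [← mul_smul, ← Subgroup.mem_centralizer_singleton_iff.1 hu, mul_smul]
    congr 1
    exact ((stabIn_one ⊤ H).ge (Subgroup.mem_inf.2 ⟨trivial, hy⟩)).2
  · rw [stabIn_one, inf_comm]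
    exact ⟨inferInstance, hc⟩

end CF.J4F
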