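import Cfsg.Agent.J4F.A
import Cfsg.Agent.J4F.PD
import Cfsg.Agent.J4F.Fix

/-! Centralisers of elements of odd prime order of `M₂₄` in the fourth Janko group. -/

set_option autoImplicit false
set_option maxRecDepth 1000000
set_option maxHeartbeats 400000
set_option Elab.async false

namespace CF.J4F

open CF.Comp CF.Bt CF.Dce CF.Dce.J4 MulAction Subgroup CF.Loc

theorem card_le_hom {G K : Type*} [Group G] [Group K] [Finite G] {A B N : Subgroup G} (φ : A →* K) (hB : B ≤ A)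
    {R : Subgroup K} [Finite R] (h1 : ∀ x : A, x.1 ∈ B → φ x = 1 → x.1 ∈ N) (h2 : ∀ x : A, x.1 ∈ B → φ x ∈ R) :
    Nat.card B ≤ Nat.card N * Nat.card R := by
  rw [← (φ.comp (inclusion hB)).ker.card_mul_index, index_ker]
  refine Nat.mul_le_mul (Nat.card_le_card_of_injective (fun x => (⟨x.1.1, h1 ⟨_, hB x.1.2⟩ x.1.2 x.2⟩ : N))
    fun x y e => Subtype.ext (Subtype.ext (congrArg (fun t : N => t.1) e))) (card_le_of_le ?_)
  rintro _ ⟨x, rfl⟩
  exact h2 ⟨_, hB x.2⟩ x.2

theorem exists_π : ∃ π : H →* K, (∀ x, π x = 1 ↔ x.1 ∈ V) ∧ ∀ (k : K) h, π ⟨ψ (sub0 rels_b) k, h⟩ = k := by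
  let e := MulEquiv.ofBijective prK prK_bij
  refine ⟨(eK.symm.toMonoidHom.comp e.symm.toMonoidHom).comp (QuotientGroup.mk' _), fun x => ?_, fun k h => ?_⟩
  · simp only [MonoidHom.comp_apply, MulEquiv.coe_toMonoidHom, map_eq_one_iff _ (MulEquiv.injective _)]
    exact QuotientGroup.eq_one_iff (N := V.subgroupOf H) x
  · exact eK.symm_apply_eq.2 (e.symm_apply_eq.2 rfl)

theorem ψ_ev (w : List ℕ) : ψ (sub0 rels_b) (ev γ w) = ev b w := by rw [map_ev, ψ_γ]

theorem centH_le {w : List ℕ} (hw : wordIn H1 w = true) {c r : ℕ} (hc : Nat.card ↥(K ⊓ centralizer {ev γ w}) ≤ c)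
    (hr : Nat.card ↥(V ⊓ centralizer {ev b w}) ≤ r) : Nat.card ↥(H ⊓ centralizer {ev b w}) ≤ r * c := by
  obtain ⟨π, h1, h2⟩ := exists_π
  have hK : ev γ w ∈ K := ev_mem_clo_of_wordIn hw
  have hH : ev b w ∈ H := KL_le (ev_mem_clo_of_wordIn hw)
  have e : π ⟨_, hH⟩ = ⟨_, hK⟩ := (congrArg π (Subtype.ext (ψ_ev w).symm)).trans (h2 ⟨_, hK⟩ ((ψ_ev w).symm ▸ hH))
  have := finite_of_le (A := K ⊓ centralizer {ev γ w}) inf_le_left
  refine (card_le_hom π inf_le_left (N := V ⊓ centralizer {ev b w}) (R := (K ⊓ centralizer {ev γ w}).subgroupOf K)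
    (fun x hx e => ⟨(h1 x).1 e, hx.2⟩) fun x hx => ⟨(π x).2, ?_⟩).trans
    (Nat.mul_le_mul hr ((card_sub_of inf_le_left).trans_le hc))
  have h3 : x * ⟨_, hH⟩ = ⟨_, hH⟩ * x := Subtype.ext (mem_centralizer_singleton_iff.1 hx.2)
  have h4 := congrArg π h3
  rw [map_mul, map_mul, e] at h4
  exact mem_centralizer_singleton_iff.2 (congrArg Subtype.val h4)

theorem card_clo_V {fs : List (List ℕ)} (h : lall (wordIn VW) fs = true) {R : Subgroup L} (hR : R ≤ V) :
    Nat.card ↥(R ⊔ clo Z fs) ≤ Nat.card R * 2 ^ fs.length := by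
  induction fs with
  | nil => simp [clo_nil]
  | cons a t ih =>
    have h1 := List.forall_mem_cons.1 (lall_iff.1 h)
    have h2 : ev Z a ∈ V := ev_mem_clo_of_wordIn h1.1
    have h3 : R ⊔ clo Z t ≤ V := sup_le hR (clo_le.2 fun w hw => ev_mem_clo_of_wordIn (h1.2 w hw))
    rw [clo_cons, ← sup_assoc, List.length_cons, pow_succ, ← mul_assoc]
    refine (card_sup_le (Subgroup.centralizer_le_normalizer _ fun g hg => eaV.comm _ (h3 hg) _ h2) two_ne_zero
      (((sq _).trans (eaV _ h2)).symm ▸ one_mem _)).trans (Nat.mul_le_mul_right 2 (ih (lall_iff.2 h1.2)))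

/-- the generators of `V` are commutators with `x` modulo `fs` -/
noncomputable def cvOK (x : List ℕ) (fs : List (List ℕ)) (us : List (List ℕ × List ℕ)) : Bool :=
  lall (fun b => b) [lall (wordIn VW) fs, colOK ZE x, allFrom (fun i => (fun u : List ℕ × List ℕ => Bool.rec false
    (eqZ (lapp x u.1) (lapp (lapp u.1 (lapp (nth [] VW i) (subst fs u.2))) x)) (wordIn VW u.1)) (nth ([], []) us i))
    (nat_lit 0) (nat_lit 11)]

theorem centV_le {x : List ℕ} {fs : List (List ℕ)} {us : List (List ℕ × List ℕ)} (h : cvOK x fs us = true) :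
    Nat.card ↥(V ⊓ centralizer {ev Z x}) ≤ 2 ^ fs.length := by
  simp only [cvOK, lall_iff (f := fun b => b), List.forall_mem_cons, allFrom_zero] at h
  obtain ⟨h1, h2, h3, -⟩ := h
  have hx : ∀ v ∈ V, ev Z x * v * (ev Z x)⁻¹ ∈ V := fun v => (mem_normalizer_iff.1 (H_norm (mem_H Ztb h2)) v).1
  let φ : V →* L := {
    toFun v := v * (ev Z x * v * (ev Z x)⁻¹)
    map_one' := by simp
    map_mul' a c := by
      have := eaV.comm _ c.2 _ (hx _ a.2)
      calc _ = a * (c * (ev Z x * a * (ev Z x)⁻¹)) * (ev Z x * c * (ev Z x)⁻¹) := by rw [coe_mul]; group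
        _ = _ := by rw [this]; group }
  have h4 : φ.range ≤ V := by rintro _ ⟨v, rfl⟩; exact mul_mem v.2 (hx _ v.2)
  have h5 : V ≤ φ.range ⊔ clo Z fs := clo_le.2 fun v hv => by
    obtain ⟨i, hi, rfl⟩ := exists_nth_of_mem [] hv
    obtain ⟨h6, h7⟩ := brec_and.1 (h3 i hi)
    have h8 := ev_mem_clo_of_wordIn (f := Z) h6
    have h9 : φ ⟨_, h8⟩ = _ := congrArg (_ * ·) (eZ.conj h7)
    rw [ev_lapp, ev_lapp, ← mul_assoc, eaV _ h8, one_mul] at h9
    rw [eq_mul_inv_of_mul_eq h9.symm]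
    exact mul_mem_sup ⟨_, rfl⟩ (inv_mem (ev_subst_mem_clo Z fs _))
  have h6 := (card_le_of_le h5).trans (card_clo_V h1 h4)
  have h7 : Nat.card ↥(V ⊓ centralizer {ev Z x}) ≤ Nat.card φ.ker := by
    refine Nat.card_le_card_of_injective (fun a => (⟨⟨a.1, a.2.1⟩, ?_⟩ : φ.ker)) fun a c e =>
      Subtype.ext (congrArg (fun t : φ.ker => t.1.1) e)
    change a.1 * (ev Z x * a.1 * (ev Z x)⁻¹) = 1
    rw [← mem_centralizer_singleton_iff.1 a.2.2, mul_inv_cancel_right, eaV _ a.2.1]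
  rw [← φ.ker.card_mul_index, index_ker, mul_comm] at h6
  exact h7.trans (Nat.le_of_mul_le_mul_left h6 Nat.card_pos)

theorem Zb {w : List ℕ} (h : lowW 2 w = true) : ev Z w = ev b w :=
  (ZF (lowW_iff.2 fun x hx => (lowW_iff.1 h x hx).trans (by decide))).trans
    (F_low (lowW_iff.2 fun x hx => (lowW_iff.1 h x hx).trans (by decide)))

theorem cent_le_K {w : List ℕ} {q j c m : ℕ} {ff : Bool} {ms : List ℕ} (hq : q.Prime) (h0 : eltOK w q ff j = true)
    {fw kg : List (List ℕ)} {T : Tr} (hc : stdOK (lapp N0 N1) 24 5 CK [w] [w] [] [] fw kg T c = true)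
    (h1 : lall (cnt q ff ms) cnds = true) (h2 : 1 + (cnds.map (fxd w c ms)).sum ≤ m) {fs : List (List ℕ)}
    {us : List (List ℕ × List ℕ)} (h : cvOK w fs us = true) :
    orderOf (ev Z w) = q ∧ Nat.card (centralizer {ev Z w}) ≤ m * (2 ^ fs.length * c) := by
  have h3 := h0
  simp only [eltOK, lall_iff (f := fun b => b), List.forall_mem_cons] at h3
  have h4 := cent_K_le h3.1 hc
  have h5 := centV_le h
  rw [Zb h3.1] at h5 ⊢
  refine ⟨?_, cent_le_fix (g := 1) (by simp) (KL_le (ev_mem_clo_of_wordIn h3.2.1)) (fix_le hq h0 h4 h1 h2)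
    (centH_le h3.2.1 h4 h5)⟩
  have hx : ev γ w ∈ K := ev_mem_clo_of_wordIn h3.2.1
  have := Fact.mk hq
  refine orderOf_eq_prime ?_ fun e => reps0.not_fixW (Nat.lt_succ_of_le (ble_iff.1 h3.2.2.2.2.2.1))
    (brec_not_and.1 h3.2.2.2.2.1).1 (by rw [ψ_inj _ hx ((ψ_ev w).trans e), one_smul])
  rw [← ψ_ev, ← map_pow, ← ev_wpow,
    reps0.eq_one_of_idW Mat.k5 exact.faithful (ev_wpow γ w q ▸ K.pow_mem hx q) h3.2.2.1, map_one]

theorem cnt3 : lall (cnt 3 true ms3) cnds = true := by decide +kernel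

theorem pr3 : orderOf (ev Z w3) = 3 ∧ Nat.card (centralizer {ev Z w3}) ≤ 2971584 :=
  cent_le_K (j := 0) (c := 504) (m := 737) (by norm_num) (by decide +kernel) (fw := K3F) (kg := K3K) (T := K3)
    (by decide +kernel) cnt3 (by decide +kernel) (fs := [[7], [175], [177]]) (us := us3) (by decide +kernel)

theorem cnt5 : lall (cnt 5 false ms5) cnds = true := by decide +kernel

theorem pr5 : orderOf (ev Z w5) = 5 ∧ Nat.card (centralizer {ev Z w5}) ≤ 6720 :=
  cent_le_K (j := 0) (c := 60) (m := 14) (by norm_num) (by decide +kernel) (fw := K5F) (kg := K5K) (T := K5)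
    (by decide +kernel) cnt5 (by decide +kernel) (fs := [[7], [179], [181]]) (us := us5) (by decide +kernel)

theorem cnt7 : lall (cnt 7 false ms7) cnds = true := by decide +kernel

theorem pr7 : orderOf (ev Z w7) = 7 ∧ Nat.card (centralizer {ev Z w7}) ≤ 1512 :=
  cent_le_K (j := 0) (c := 42) (m := 9) (by norm_num) (by decide +kernel) (fw := K7F) (kg := K7K) (T := K7)
    (by decide +kernel) cnt7 (by decide +kernel) (fs := [[7], [175]]) (us := us7) (by decide +kernel)

theorem cnt11 : lall (cnt 11 false ms11) cnds = true := by decide +kernel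

theorem pr11 : orderOf (ev Z w11) = 11 ∧ Nat.card (centralizer {ev Z w11}) ≤ 242 :=
  cent_le_K (j := 0) (c := 11) (m := 11) (by norm_num) (by decide +kernel) (fw := K11F) (kg := K11K) (T := K11)
    (by decide +kernel) cnt11 (by decide +kernel) (fs := [[181]]) (us := us11) (by decide +kernel)

theorem cnt23 : lall (cnt 23 false ms23) cnds = true := by decide +kernel

theorem pr23 : orderOf (ev Z w23) = 23 ∧ Nat.card (centralizer {ev Z w23}) ≤ 69 :=
  cent_le_K (j := 0) (c := 23) (m := 3) (by norm_num) (by decide +kernel) (fw := K23F) (kg := K23K) (T := K23)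
    (by decide +kernel) cnt23 (by decide +kernel) (fs := []) (us := us23) (by decide +kernel)


end CF.J4F
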