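import Cfsg.Agent.J4F.T
import Cfsg.Agent.J4F.P
import Cfsg.Agent.J4F.RD
import Cfsg.Agent.J4F.Gen3

/-! Elements of the local subgroups of the fourth Janko group. -/

set_option autoImplicit false
set_option maxRecDepth 1000000
set_option maxHeartbeats 400000
set_option Elab.async false

namespace CF.J4F

open CF.Comp CF.Bt CF.Dce CF.Dce.J4 MulAction Subgroup

/-- the letters -/
noncomputable abbrev R : ℕ → L := slp A RW 121

theorem Rok_0 : allFrom (layAt mL eL RE RW 121) 0 8 = true := by decide +kernel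

theorem Rok_8 : allFrom (layAt mL eL RE RW 121) 8 6 = true := by decide +kernel

theorem Rok_14 : allFrom (layAt mL eL RE RW 121) 14 27 = true := by decide +kernel

theorem Rok_41 : allFrom (layAt mL eL RE RW 121) 41 4 = true := by decide +kernel

theorem Rok : ∀ j < 45, layAt mL eL RE RW 121 j = true := by
  have h : ∀ j < 0, layAt mL eL RE RW 121 j = true := by simp
  have h := forall_lt_add h (allFrom_iff.1 Rok_0)
  have h := forall_lt_add h (allFrom_iff.1 Rok_8)
  have h := forall_lt_add h (allFrom_iff.1 Rok_14)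
  have h := forall_lt_add h (allFrom_iff.1 Rok_41)
  exact h

theorem Ren : En 112 ι R RE :=
  Aen.layer MP (by decide +kernel) (by decide +kernel) rfl rfl Rok

theorem Rtb : Tbl 2 1 112 mL eL (full 12544) ι R RE := Ren.tbl MP ι_inj

theorem Rlow {w : List ℕ} (h : lowW 121 w = true) : ev R w = ev A w := ev_slp_low _ _ h

/-- equality of words -/
noncomputable abbrev eqR : List ℕ → List ℕ → Bool := eqM mL eL (full 12544) RE

/-- inequality of words -/
noncomputable abbrev neR : List ℕ → List ℕ → Bool := neM mL eL (full 12544) RE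

theorem eR : Eqv R eqR := Rtb.eqv

theorem nR : Nev R neR := Rtb.nev

theorem lowW_mono {a b : ℕ} (h : a ≤ b) {w : List ℕ} (hw : lowW a w = true) : lowW b w = true :=
  lall_iff.2 fun x hx => ble_iff.2 ((ble_iff.1 (lall_iff.1 hw x hx)).trans (Nat.mul_le_mul_left _ h))

theorem RZ {w : List ℕ} (h : lowW 116 w = true) : ev R w = ev Z w :=
  (Rlow (lowW_mono (by decide) h)).trans (Alow h)

theorem RF {w : List ℕ} (h : lowW 34 w = true) : ev R w = ev F w := (RZ (lowW_mono (by decide) h)).trans (ZF h)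

theorem Rs : ev R [7] = s := (RZ (by decide +kernel)).trans Zs

theorem Rω : ev R [43] = ω := RF (by decide +kernel)

theorem Ru : ev R [225] = u := RZ (by decide +kernel)

theorem clo_B {T : List (List ℕ)} (h : com1 eqR T [7] = true) : clo R T ≤ B := cent_s.1 ▸ Rs ▸ Eqv.com1 eR h

theorem clo_H {T : List (List ℕ)} (h : lall (colOK RE) T = true) : clo R T ≤ H :=
  clo_le.2 fun w hw => mem_H Rtb (lall_iff.1 h w hw)

theorem evs_clo (T : List (List ℕ)) (i : ℕ) : evs R T i ∈ clo R T := Comp.evs_mem (fun _ => ev_mem_clo R) i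

theorem ev_clo (T : List (List ℕ)) (w : List ℕ) : ev (evs R T) w ∈ clo R T := ev_mem (evs_clo T) w

theorem pt0 {E : ℕ → ℕ} {N l : ℕ} {P : List ℕ} {σ : Net} {nets : List Net} {us : List (List ℕ)}
    (h : vOK E N P σ nets us l = true)
    (h0 : allFrom (fun k => Nat.beq (fld 1 (nth 0 P k) 0) (Nat.sub 1 k)) 0 112 = true) : (vD h).pt 0 = e0 := by
  funext k
  have := beq_iff.1 (allFrom_zero.1 h0 k k.2)
  show ((fld 1 (nth 0 P k) 0 : ℕ) : ZMod 2) = _
  rw [this, e0, Pi.single_apply]
  obtain ⟨_ | k, hk⟩ := k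
  · rfl
  · simp [Fin.ext_iff]

theorem not_sq_L {p : ℕ} (h : p ∈ [5, 7, 23, 29, 31, 37, 43]) : ¬ p ^ 2 ∣ Nat.card L := by
  rw [card_L]; revert p; decide +kernel

theorem cent_dvd (x : L) : Nat.card (centralizer {x}) ∣ 86775571046077562880 := card_L ▸ card_subgroup_dvd_card _

end CF.J4F
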