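import Cfsg.Agent.J4F.Gen3
import Cfsg.Agent.Comp.Row

/-! Tools for proving maximality: trivial intersection Sylow subgroups, divisors, enumeration of conjugates. -/

set_option autoImplicit false

namespace CF.J4F

open CF.Comp CF.Dce CF.Bt MulAction Subgroup

section TI
variable {G : Type*} [Group G]

theorem card_dvd_of_free {Ω : Type*} [MulAction G Ω] (P : Subgroup G) (n : ℕ) : ∀ S : Set Ω, S.Finite → S.ncard = n →
    (∀ g ∈ P, ∀ x ∈ S, g • x ∈ S) → (∀ g ∈ P, ∀ x ∈ S, g • x = x → g = 1) → Nat.card P ∣ n := by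
  induction n using Nat.strong_induction_on with
  | _ n ih =>
    intro S hS hn h1 h2
    rcases S.eq_empty_or_nonempty with rfl | ⟨x, hx⟩
    · exact hn ▸ by simp
    have h3 : orbIn P x ⊆ S := fun _ ⟨g, hg, e⟩ => e ▸ h1 g hg x hx
    have h4 := card_eq_orb_mul P x
    rw [show stabIn P x = ⊥ from eq_bot_iff.2 fun g hg => h2 g hg.1 x hx hg.2, card_bot, mul_one] at h4
    have h5 := Set.ncard_sdiff_add_ncard_of_subset h3 hS
    have h6 : 0 < (orbIn P x).ncard := (Set.ncard_pos (hS.subset h3)).2 ⟨x, 1, one_mem _, one_smul _ _⟩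
    rw [← hn, ← h5, ← h4]
    refine Nat.dvd_add (ih _ (by omega) (S \ orbIn P x) hS.sdiff rfl (fun g hg y hy => ⟨h1 g hg y hy.1, ?_⟩)
      fun g hg y hy => h2 g hg y hy.1) dvd_rfl
    rintro ⟨k, hk, e⟩
    exact hy.2 ⟨g⁻¹ * k, mul_mem (inv_mem hg) hk, by rw [mul_smul, e, inv_smul_smul]⟩

variable [Finite G] {p : ℕ} [Fact p.Prime]

/-- the Sylow subgroups have trivial intersections -/
def TI (p : ℕ) (G : Type*) [Group G] : Prop := ∀ U U' : Sylow p G, ∀ x ∈ U, x ∈ U' → x ≠ 1 → U = U'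

theorem mem_of_norm {U U' : Sylow p G} {x : G} (h : x ∈ U) (hx : x • U' = U') : x ∈ U' :=
  (IsPGroup.inf_normalizer_sylow U.isPGroup' U').le ⟨h, Sylow.smul_eq_iff_mem_normalizer.1 hx⟩ |>.2

theorem TI.norm_le (h : TI p G) (U : Sylow p G) {R : Subgroup G} (hR : R ≤ U) (h1 : R ≠ ⊥) :
    normalizer (R : Set G) ≤ normalizer ((U : Subgroup G) : Set G) := fun g hg => by
  obtain ⟨⟨x, hx⟩, h2⟩ := ne_bot_iff_exists_ne_one.1 h1
  refine Sylow.smul_eq_iff_mem_normalizer.1 (h _ _ (g * x * g⁻¹) ?_ (hR ((mem_normalizer_iff.1 hg x).1 hx)) ?_)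
  · exact ⟨x, hR hx, rfl⟩
  · simpa using h2

theorem TI.cong (h : TI p G) (U : Sylow p G) {E : ℕ}
    (hE : Nat.card (normalizer ((U : Subgroup G) : Set G)) = Nat.card U * E) (M : Subgroup G) :
    ∃ e j, e ∣ E ∧ Nat.card ↥(M ⊓ normalizer ((U : Subgroup G) : Set G)) = Nat.card ↥(M ⊓ U) * e ∧
      Nat.card M = j * (Nat.card ↥(M ⊓ U) * e) ∧ j ≡ 1 [MOD Nat.card ↥(M ⊓ U)] := by
  set N := normalizer ((U : Subgroup G) : Set G)
  have h1 := card_eq_orb_mul M U
  rw [show stabIn M U = M ⊓ N from Subgroup.ext fun g => and_congr_right fun _ => Sylow.smul_eq_iff_mem_normalizer] at h1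
  have h2 : Nat.card ↥(M ⊓ N) = Nat.card ↥(M ⊓ U) * (U : Subgroup G).relIndex (M ⊓ N) := by
    rw [← inf_relIndex_right, relIndex, ← card_sub_of (inf_le_inf_left M le_normalizer : M ⊓ U ≤ M ⊓ N),
      show (U : Subgroup G) ⊓ (M ⊓ N) = M ⊓ U by
        rw [inf_left_comm, inf_eq_left.2 (le_normalizer : (U : Subgroup G) ≤ N)], card_mul_index]
  have h3 : (U : Subgroup G).relIndex N = E := Nat.eq_of_mul_eq_mul_left (Nat.card_pos (α := U)) (by
    rw [← hE, relIndex, ← card_sub_of (le_normalizer : (U : Subgroup G) ≤ N), card_mul_index])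
  refine ⟨_, _, ?_, h2, h2 ▸ h1, ?_⟩
  · have := relIndex_dvd_index_of_normal ((U : Subgroup G).subgroupOf N) ((M ⊓ N).subgroupOf N)
    rwa [relIndex_subgroupOf inf_le_right, ← relIndex, h3] at this
  · have hU : U ∈ orbIn M U := ⟨1, one_mem _, one_smul _ _⟩
    have := card_dvd_of_free (M ⊓ U) _ (orbIn M U \ {U}) (Set.toFinite _) rfl (fun g hg x hx => ⟨?_, fun e => hx.2 ?_⟩)
      fun g hg x hx e => not_not.1 fun h1 => hx.2 (h _ _ g (mem_of_norm hg.2 e) hg.2 h1)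
    · rw [← Set.ncard_sdiff_singleton_add_one hU]
      exact (Nat.modEq_zero_iff_dvd.2 this).add_right 1
    · obtain ⟨k, hk, rfl⟩ := hx.1
      exact ⟨g * k, mul_mem hg.1 hk, mul_smul _ _ _⟩
    · rw [Set.mem_singleton_iff, ← inv_smul_smul g x, e]
      exact Sylow.smul_eq_iff_mem_normalizer.2 (le_normalizer (inv_mem hg.2))

theorem ti_of_not_sq (h : ¬ p ^ 2 ∣ Nat.card G) : TI p G := fun U U' x h1 h2 h3 => by
  have k : ∀ W : Sylow p G, x ∈ W → zpowers x = W := fun W hW => by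
    obtain ⟨n, hn⟩ := IsPGroup.iff_card.1 W.isPGroup'
    have h4 : n ≤ 1 := Nat.le_of_lt_succ (not_le.1 fun e => h (((pow_dvd_pow p e).trans hn.symm.dvd).trans
      (card_subgroup_dvd_card _)))
    have h5 := card_dvd_of_le (zpowers_le.2 hW : zpowers x ≤ W)
    rw [hn] at h5
    obtain ⟨m, h6, h7⟩ := (Nat.dvd_prime_pow Fact.out).1 h5
    refine Comp.eq_of_le_of_card_le (zpowers_le.2 hW) ?_
    rw [hn, h7]
    refine Nat.pow_le_pow_right (Nat.Prime.pos Fact.out) (h4.trans (Nat.pos_of_ne_zero ?_))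
    rintro rfl
    exact h3 (orderOf_eq_one_iff.1 ((Nat.card_zpowers x).symm.trans h7))
  exact Sylow.ext ((k U h1).symm.trans (k U' h2))

/-- Burnside's transfer theorem and the Frattini argument -/
theorem burn_frat {q : ℕ} [Fact q.Prime] (hq : q ≠ p) (P : Sylow p G)
    (hP : normalizer ((P : Subgroup G) : Set G) ≤ centralizer (P : Set G)) (R : Sylow q G) :
    Nat.card P ∣ Nat.card (normalizer ((R : Subgroup G) : Set G)) := by
  have h := MonoidHom.ker_transferSylow_isComplement' P hP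
  set K := (MonoidHom.transferSylow P hP).ker
  have h1 : (R : Subgroup G) ≤ K := fun x hx => by
    obtain ⟨k, hk⟩ := R.isPGroup' ⟨x, hx⟩
    obtain ⟨l, hl⟩ := P.isPGroup' (MonoidHom.transferSylow P hP x)
    refine orderOf_eq_one_iff.1 (Nat.eq_one_of_dvd_coprimes (Nat.Coprime.pow k l ((Nat.coprime_primes Fact.out Fact.out).2 hq))
      (orderOf_dvd_of_pow_eq_one ?_) (orderOf_dvd_of_pow_eq_one hl))
    rw [← map_pow, show x ^ q ^ k = 1 from congrArg Subtype.val hk, map_one]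
  have h2 := R.normalizer_sup_eq_top' h1
  rw [← h.symm.index_eq_card, ← relIndex_top_right, ← h2, relIndex_sup_right]
  exact (K.subgroupOf _).index_dvd_card

/-- the congruence of Sylow's theorem -/
noncomputable def cg (m Q e : Nat) : Bool :=
  Bool.rec false (Nat.beq (Nat.mod (Nat.div m (Nat.mul Q e)) Q) (nat_lit 1)) (Nat.beq (Nat.mod m (Nat.mul Q e)) (nat_lit 0))

variable (G p) in
/-- the Sylow subgroups and their normalisers -/
def SD (k E : ℕ) : Prop := TI p G ∧ ∀ U : Sylow p G, Nat.card U = p ^ k ∧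
  Nat.card (normalizer ((U : Subgroup G) : Set G)) = p ^ k * E

variable {k E : ℕ}

theorem sd_of (h : TI p G) (U : Sylow p G) (h1 : Nat.card U = p ^ k)
    (h2 : Nat.card (normalizer ((U : Subgroup G) : Set G)) = p ^ k * E) : SD G p k E := ⟨h, fun W => by
  refine ⟨(Nat.card_congr (Sylow.equiv W U).toEquiv).trans h1, h2 ▸ Nat.eq_of_mul_eq_mul_right
    (Nat.card_pos (α := Sylow p G)) ?_⟩
  conv_lhs => rw [W.card_eq_index_normalizer]
  conv_rhs => rw [U.card_eq_index_normalizer]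
  exact (card_mul_index _).trans (card_mul_index _).symm⟩

theorem sd_one (h : ¬ p ^ 2 ∣ Nat.card G) {x : G} (hx : orderOf x = p)
    (h2 : Nat.card (normalizer (zpowers x : Set G)) = p * E) : SD G p 1 E := by
  obtain ⟨U, hU⟩ := exists_sylow_zpowers h hx
  exact sd_of (ti_of_not_sq h) U (by rw [hU, Nat.card_zpowers, hx, pow_one]) (by rw [hU, h2, pow_one])

theorem SD.syl (h : SD G p k E) {S : Subgroup G} (hS : Nat.card S = p ^ k) : ∃ U : Sylow p G, (U : Subgroup G) = S := by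
  obtain ⟨U, hU⟩ := (IsPGroup.of_card hS).exists_le_sylow
  exact ⟨U, (Comp.eq_of_le_of_card_le hU ((h.2 U).1.trans hS.symm).le).symm⟩

theorem SD.norm (h : SD G p k E) {S : Subgroup G} (hS : Nat.card S = p ^ k) :
    Nat.card (normalizer (S : Set G)) = p ^ k * E := by
  obtain ⟨U, rfl⟩ := h.syl hS
  exact (h.2 U).2

theorem SD.cg (h : SD G p k E) {S : Subgroup G} (hS : Nat.card S = p ^ k) (M : Subgroup G) {Q : ℕ}
    (hQ : Nat.card ↥(M ⊓ S) = Q) (h1 : 1 < Q) :
    ∃ e, e ∣ E ∧ Nat.card ↥(M ⊓ normalizer (S : Set G)) = Q * e ∧ cg (Nat.card M) Q e = true := by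
  obtain ⟨U, rfl⟩ := h.syl hS
  obtain ⟨e, j, h2, h3, h4, h5⟩ := h.1.cong U (hS ▸ (h.2 U).2) M
  rw [hQ] at h3 h4 h5
  refine ⟨e, h2, h3, brec_and.2 ⟨beq_iff.2 ?_, beq_iff.2 ?_⟩⟩
  · exact h4 ▸ Nat.mul_mod_left _ _
  · show Nat.card M / (Q * e) % Q = 1
    rw [h4, Nat.mul_div_cancel _ (h3 ▸ Nat.card_pos), h5, Nat.mod_eq_of_lt h1]

theorem SD.cg_le (h : SD G p k E) {S : Subgroup G} (hS : Nat.card S = p ^ k) (hk : k ≠ 0) {M : Subgroup G} (hM : S ≤ M) :
    ∃ e, e ∣ E ∧ Nat.card ↥(M ⊓ normalizer (S : Set G)) = p ^ k * e ∧ J4F.cg (Nat.card M) (p ^ k) e = true :=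
  h.cg hS M (by rw [inf_eq_right.2 hM, hS]) (Nat.one_lt_pow hk (Nat.Prime.one_lt Fact.out))

theorem SD.cg_eq (h : SD G p k E) {S : Subgroup G} (hS : Nat.card S = p ^ k) (hk : k ≠ 0) {M : Subgroup G} (hM : S ≤ M)
    {e : ℕ} (he : Nat.card ↥(M ⊓ normalizer (S : Set G)) = p ^ k * e) : J4F.cg (Nat.card M) (p ^ k) e = true := by
  obtain ⟨e', -, h1, h2⟩ := h.cg_le hS hk hM
  exact Nat.eq_of_mul_eq_mul_left (hS ▸ Nat.card_pos) (h1.symm.trans he) ▸ h2

theorem SD.cg_top (h : SD G p k E) {S : Subgroup G} (hS : Nat.card S = p ^ k) (hk : k ≠ 0) {M : Subgroup G}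
    (hM : normalizer (S : Set G) ≤ M) : J4F.cg (Nat.card M) (p ^ k) E = true :=
  h.cg_eq hS hk (le_normalizer.trans hM) (by rw [inf_eq_right.2 hM, h.norm hS])

theorem SD.cg_mem (h : SD G p k E) {S : Subgroup G} (hS : Nat.card S = p ^ k) {M : Subgroup G} (hM : M ⊓ S ≠ ⊥) :
    ∃ i ∈ List.range' 1 k, ∃ e, e ∣ E ∧ Nat.card ↥(M ⊓ normalizer (S : Set G)) = p ^ i * e ∧
      J4F.cg (Nat.card M) (p ^ i) e = true := by
  obtain ⟨i, h1, h2⟩ := (Nat.dvd_prime_pow Fact.out).1 (hS ▸ card_dvd_of_le (inf_le_right : M ⊓ S ≤ S))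
  have h3 : i ≠ 0 := fun e => hM (card_eq_one.1 (by rw [h2, e, pow_zero]))
  exact ⟨i, List.mem_range'_1.2 (by omega), h.cg hS M h2 (Nat.one_lt_pow h3 (Nat.Prime.one_lt Fact.out))⟩

/-- the sieve for one prime -/
noncomputable def svq (m : Nat) (q : Nat × List Nat × List Nat) : Bool :=
  Bool.rec true (lany (fun Q => lany (cg m Q) q.2.2) q.2.1) (Nat.beq (Nat.mod m q.1) (nat_lit 0))

theorem SD.svq (h : SD G p k E) {Qs es : List ℕ} (h1 : ∀ i ∈ List.range' 1 k, p ^ i ∈ Qs) (h0 : E ≠ 0)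
    (h2 : ∀ e ∈ E.divisors, e ∈ es) (M : Subgroup G) : svq (Nat.card M) (p, Qs, es) = true := brec_imp.2 fun hd => by
  obtain ⟨x, hx⟩ := exists_prime_orderOf_dvd_card' p (Nat.dvd_of_mod_eq_zero (beq_iff.1 hd))
  rw [← orderOf_coe] at hx
  obtain ⟨U, hU⟩ := (IsPGroup.of_card (n := 1) (by rw [Nat.card_zpowers, hx, pow_one]) :
    IsPGroup p (zpowers x.1)).exists_le_sylow
  obtain ⟨i, a1, e, a2, -, a3⟩ := h.cg_mem (h.2 U).1 (M := M) fun e => by
    have : x.1 = 1 := e.le ⟨x.2, hU (mem_zpowers _)⟩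
    rw [this, orderOf_one] at hx
    exact (Nat.Prime.one_lt Fact.out).ne hx
  exact lany_iff.2 ⟨_, h1 i a1, lany_iff.2 ⟨e, h2 e (Nat.mem_divisors.2 ⟨a2, h0⟩), a3⟩⟩

theorem SD.burn {q : ℕ} [Fact q.Prime] (h : SD G q k E) (hq : q ≠ p) {M : Subgroup G} (U : Sylow p G) (hU : U ≤ M)
    (hC : M ⊓ normalizer ((U : Subgroup G) : Set G) ≤ centralizer ((U : Subgroup G) : Set G)) (hd : q ∣ Nat.card M) :
    Nat.card U ∣ q ^ k * E := by
  obtain ⟨R⟩ : Nonempty (Sylow q M) := inferInstance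
  have h1 := burn_frat hq (U.subtype hU) (fun g hg => mem_centralizer_iff.2 fun x hx => Subtype.ext
    (mem_centralizer_iff.1 (hC ⟨g.2, (subgroupOf_normalizer_eq hU).ge hg⟩) _ hx)) R
  obtain ⟨W, hW⟩ := (R.isPGroup'.map M.subtype).exists_le_sylow
  rw [Sylow.coe_subtype, card_sub_of hU, ← card_map_of_injective M.subtype_injective] at h1
  refine (h.2 W).2 ▸ h1.trans (card_dvd_of_le ((le_normalizer_map _).trans (h.1.norm_le W hW fun e => ?_)))
  exact R.ne_bot_of_dvd_card hd ((map_eq_bot_iff_of_injective _ M.subtype_injective).1 e)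

theorem pow_dvd_norm {M T : Subgroup G} (h : T ≤ M) (hT : Nat.card T = p ^ k) (hd : p ^ (k + 1) ∣ Nat.card M) :
    p ^ (k + 1) ∣ Nat.card ↥(M ⊓ normalizer (T : Set G)) := by
  have := Sylow.prime_pow_dvd_card_normalizer hd ((card_sub_of h).trans hT)
  rwa [← subgroupOf_normalizer_eq h, ← inf_subgroupOf_left, card_sub_of inf_le_left] at this

omit [Finite G] in
theorem card_le_conj {C : Subgroup G} {x : G} {T : Set G} (hT : T.Finite) (h : ∀ g ∈ C, g * x * g⁻¹ ∈ T) :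
    Nat.card C ≤ T.ncard * Nat.card ↥(C ⊓ centralizer {x}) := by
  rw [J4.card_cls C x]
  exact Nat.mul_le_mul_right _ (Set.ncard_le_ncard (by rintro _ ⟨g, hg, rfl⟩; exact h g hg) hT)

theorem card_norm2 {x : G} (hx : orderOf x = 3 ∨ orderOf x = 4) (C : Subgroup G) :
    Nat.card ↥(C ⊓ normalizer (zpowers x : Set G)) ≤ 2 * Nat.card ↥(C ⊓ centralizer {x}) := by
  refine (card_le_conj (x := x) (T := {x, x ^ (orderOf x - 1)}) (Set.toFinite _) fun g hg => ?_).trans
    (Nat.mul_le_mul ((Set.ncard_insert_le _ _).trans_eq (by rw [Set.ncard_singleton]))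
      (card_le_of_le (inf_le_inf_right _ inf_le_left)))
  obtain ⟨i, hi⟩ := mem_powers_iff_mem_zpowers.2 ((mem_normalizer_iff.1 hg.2 x).1 (mem_zpowers x))
  replace hi : x ^ i = g * x * g⁻¹ := hi
  have h1 := order_of_conj (isConj_iff.2 ⟨g, rfl⟩ : IsConj x _)
  have h2 := orderOf_dvd_of_pow_eq_one (x := g * x * g⁻¹) (n := 2)
  have h4 := orderOf_dvd_of_pow_eq_one (x := g * x * g⁻¹) (n := 1)
  rw [← h1, ← hi, ← pow_mul, ← orderOf_dvd_iff_pow_eq_one] at h2 h4
  rw [← hi, ← pow_mod_orderOf x i]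
  have : i % orderOf x = 1 ∨ i % orderOf x = orderOf x - 1 := by rcases hx with e | e <;> rw [e] at h2 h4 ⊢ <;> omega
  exact this.imp (fun e => by rw [e, pow_one]) fun e => by rw [e]; rfl

end TI

/-! ### divisors -/

/-- the test holds for the products of `a` with the divisors of the product of the prime powers -/
noncomputable def allD (P : Nat → Bool) (l : List (Nat × Nat)) : Nat → Bool :=
  List.rec (motive := fun _ => Nat → Bool) P (fun q _ ih a =>
    allFrom (fun i => force (Nat.mul a (Nat.pow q.1 i)) ih) (nat_lit 0) (Nat.succ q.2)) l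

theorem allD_spec {P : ℕ → Bool} {l : List (ℕ × ℕ)} (hl : ∀ q ∈ l, q.1.Prime) {a : ℕ} (h : allD P l a = true) {d : ℕ}
    (hd : d ∣ (l.map fun q => q.1 ^ q.2).prod) : P (a * d) = true := by
  induction l generalizing a d with
  | nil => rw [Nat.dvd_one.1 hd, mul_one]; exact h
  | cons q t ih =>
    rw [List.map_cons, List.prod_cons] at hd
    obtain ⟨d1, d2, h1, h2, rfl⟩ := exists_dvd_and_dvd_of_dvd_mul hd
    obtain ⟨i, hi, rfl⟩ := (Nat.dvd_prime_pow (hl q List.mem_cons_self)).1 h1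
    have := (allFrom_zero (f := fun i => force (a * q.1 ^ i) (allD P t)) (k := q.2 + 1)).1 h i (Nat.lt_succ_of_le hi)
    rw [force_eq] at this
    rw [← mul_assoc]
    exact ih (fun q hq => hl q (List.mem_cons_of_mem _ hq)) this h2

/-! ### enumeration of conjugates -/

section Enum
variable {n : ℕ} {mul : ℕ → ℕ → ℕ} {one F : ℕ} {E : ℕ → ℕ} {G : Type} [Group G] {ρ : G →* GL (Fin n) (ZMod 2)}
  {f : ℕ → G}

/-- power by repeated squaring -/
noncomputable def pwB (mul : Nat → Nat → Nat) (v : Nat) (s : Nat) : Nat → Nat :=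
  Nat.rec (motive := fun _ => Nat → Nat) (fun _ => v) (fun _ ih k =>
    force (ih (Nat.div k (nat_lit 2))) fun y => force (mul y y) fun z =>
      Bool.rec (mul z v) z (Nat.beq (Nat.mod k (nat_lit 2)) (nat_lit 0))) s

/-- the product of the words, each followed by `v` -/
noncomputable def ilv (mul : Nat → Nat → Nat) (one : Nat) (E : Nat → Nat) (v : Nat) (ws : List (List Nat)) : Nat :=
  List.rec (motive := fun _ => Nat) one (fun w t r =>
    force (List.rec (motive := fun _ => Nat) v (fun _ _ _ => force r (mul v)) t) fun y =>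
      List.rec (motive := fun _ => Nat) y (fun _ _ _ => force (evW mul one E w) fun x => mul x y) w) ws

/-- the product has prime order `2 ^ s + k` -/
noncomputable def ordC (mul : Nat → Nat → Nat) (one F : Nat) (E : Nat → Nat) (hs : List (List Nat)) (v : Nat)
    (c : List (List Nat) × Nat × Nat) : Bool :=
  force (ilv mul one E v c.1) fun y => lall (fun b => b) [lall (wordIn hs) c.1, nz F y,
    Bool.rec true false (Nat.beq (Nat.land y F) (Nat.land one F)), Nat.ble (Nat.succ c.2.2) (Nat.pow (nat_lit 2) c.2.1),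
    Nat.beq (pwB mul y c.2.1 c.2.2) one]

/-- the prime of a certificate -/
noncomputable def prC (c : List (List Nat) × Nat × Nat) : Nat := Nat.add (Nat.pow (nat_lit 2) c.2.1) c.2.2

/-- a block of conjugates -/
structure Bk where
  /-- the conjugating element -/
  r : List Nat
  /-- further conjugating elements and hash values -/
  as : List (List Nat × Nat)
  /-- elements of prime order -/
  c : List (List (List Nat) × Nat × Nat)

/-- the test for a block -/
noncomputable def bkOK (mul : Nat → Nat → Nat) (one F : Nat) (E : Nat → Nat) (cs as ts hs : List (List Nat)) (z : List Nat)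
    (big : List (List Nat)) (b : Bk) : Bool :=
  force (evW mul one E (lapp (lapp b.r z) (winv b.r))) fun v => lall (fun b => b) [wordIn cs b.r,
    lall (fun a => force (List.rec (motive := fun _ => Nat) v (fun _ _ _ => force (evW mul one E a.1) fun x =>
      force (mul x v) fun y => force (evW mul one E (winv a.1)) (mul y)) a.1) fun y => lall (fun b => b)
        [wordIn as a.1, nz F y, Nat.beq (Nat.mod (Nat.land y F) (nat_lit 1000000007)) a.2]) b.as,
    Bool.rec (Bool.rec false (lall (ordC mul one F E hs v) b.c) (lany (leq (lmap prC b.c)) big)) true (wordIn ts b.r)]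

/-- the hash values -/
noncomputable def hashes (bs : List Bk) : List Nat :=
  List.rec (motive := fun _ => List Nat) [] (fun b _ r => lapp (lmap Prod.snd b.as) r) bs

variable (M : MatM 2 1 n mul one fun _ => true) (T : Tbl 2 1 n mul one F ρ f E)
include M

theorem isZ_pwB {v : ℕ} {a : GL (Fin n) (ZMod 2)} (h : IsZ 2 1 n v a) (s : ℕ) :
    ∀ k < 2 ^ s, IsZ 2 1 n (pwB mul v s k) (a ^ (2 ^ s + k)) := by
  induction s with
  | zero => intro k hk; rw [show k = 0 by omega, pow_zero, add_zero, pow_one]; exact h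
  | succ s ih =>
    intro k hk
    have h1 := ih (k / 2) (by omega)
    have h2 := M.isZ_mul h1 h1
    rw [show pwB mul v (s + 1) k = Bool.rec (mul (mul (pwB mul v s (k / 2)) (pwB mul v s (k / 2))) v)
      (mul (pwB mul v s (k / 2)) (pwB mul v s (k / 2))) (Nat.beq (Nat.mod k 2) 0) from by
        simp only [pwB, force_eq]; rfl]
    rcases Nat.mod_two_eq_zero_or_one k with e | e
    · rw [beq_iff.2 (show Nat.mod k 2 = 0 from e), show 2 ^ (s + 1) + k = 2 ^ s + k / 2 + (2 ^ s + k / 2) by omega, pow_add]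
      exact h2
    · rw [beq_false_iff.2 (show Nat.mod k 2 ≠ 0 from by rw [show Nat.mod k 2 = 1 from e]; decide),
        show 2 ^ (s + 1) + k = 2 ^ s + k / 2 + (2 ^ s + k / 2) + 1 by omega, pow_succ, pow_add]
      exact M.isZ_mul h2 h

include T

theorem isZ_ilv {v : ℕ} {a : G} (h : IsZ 2 1 n v (ρ a)) (ws : List (List ℕ)) :
    IsZ 2 1 n (ilv mul one E v ws) (ρ (ws.map fun w => ev f w * a).prod) := by
  induction ws with
  | nil => exact map_one ρ ▸ M.isM_one.isZ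
  | cons w t ih =>
    have h1 : IsZ 2 1 n (List.rec (motive := fun _ => ℕ) v (fun _ _ _ => force (ilv mul one E v t) (mul v)) t)
        (ρ (a * (t.map fun w => ev f w * a).prod)) := by
      cases t with
      | nil => simpa using h
      | cons _ _ => rw [map_mul]; exact force_eq _ (mul v) ▸ M.isZ_mul h ih
    rw [List.map_cons, List.prod_cons, mul_assoc]
    simp only [ilv, force_eq] at h1 ⊢
    cases w with
    | nil => simpa using h1
    | cons _ _ => rw [map_mul]; exact M.isZ_mul (T.ev _) h1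

theorem dvd_of_ordC [NeZero n] [Finite G] {hs : List (List ℕ)} {v : ℕ} {a : G} (h : IsZ 2 1 n v (ρ a))
    {c : List (List ℕ) × ℕ × ℕ} (hc : ordC mul one F E hs v c = true) (hp : (prC c).Prime) {K : Subgroup G}
    (h1 : clo f hs ≤ K) (h2 : a ∈ K) : prC c ∣ Nat.card K := by
  simp only [ordC, force_eq, lall_iff (f := fun b => b), List.forall_mem_cons, brec_not_and, beq_false_iff, ble_iff,
    beq_iff] at hc
  obtain ⟨c1, c2, ⟨c3, -⟩, c4, c5, -⟩ := hc
  have := Fact.mk hp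
  have := Fact.mk T.lt
  have h3 := isZ_ilv M T h c.1
  have h4 := (isZ_pwB M h3 c.2.1 c.2.2 c4).isM M.isM_one c5
  rw [← map_pow, ← map_one ρ] at h4
  refine (orderOf_eq_prime (p := prC c) (T.inj h4) fun e => c3 ?_) ▸ orderOf_dvd_natCard K (list_prod_mem fun x hx => ?_)
  · exact T.eq ▸ (h3.of_nz T.pos T.eq c2).land_eq T.pos (by rw [e, map_one]; exact M.isM_one)
  · obtain ⟨w, hw, rfl⟩ := List.mem_map.1 hx
    exact mul_mem (h1 (ev_mem_clo_of_wordIn (lall_iff.1 c1 w hw))) h2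

theorem bk_step [NeZero n] [Finite G] {cs as ts hs big : List (List ℕ)} {z : List ℕ} (hp : ∀ l ∈ big, ∀ p ∈ l, p.Prime)
    {bs : List Bk} (h : ∀ b ∈ bs, bkOK mul one F E cs as ts hs z big b = true) (hn : nodupN (hashes bs) = true)
    {C K : Subgroup G} (h1 : clo f cs ≤ C) (h2 : clo f as ≤ C) (h3 : clo f hs ≤ K) (h4 : clo f as ≤ K)
    (h5 : ∀ l ∈ big, ¬ ∀ p ∈ l, p ∣ Nat.card K) :
    ∃ l : List G, l.Nodup ∧ l.length = (hashes bs).length ∧ (∀ y ∈ l, ∃ g ∈ C, g * ev f z * g⁻¹ = y) ∧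
      ∀ y ∈ l, y ∈ K → ∃ a ∈ clo f as, ∃ d ∈ clo f ts, a * (d * ev f z * d⁻¹) * a⁻¹ = y := by
  let l : List (G × ℕ) := bs.flatMap fun b => b.as.map fun a => (ev f a.1 * (ev f b.r * ev f z * (ev f b.r)⁻¹) * (ev f a.1)⁻¹, a.2)
  have e : l.map Prod.snd = hashes bs := by
    simp only [l]
    clear h hn l
    induction bs with
    | nil => rfl
    | cons b t ih =>
      rw [List.flatMap_cons, List.map_append, ih, List.map_map]
      exact ((lapp_eq _ _).trans (congrArg (· ++ _) (lmap_eq _ _))).symm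
  have k : ∀ q ∈ l, (∃ y, IsM 2 1 n y (ρ q.1) ∧ (y &&& F) % 1000000007 = q.2) ∧ (∃ g ∈ C, g * ev f z * g⁻¹ = q.1) ∧
      (q.1 ∈ K → ∃ a ∈ clo f as, ∃ d ∈ clo f ts, a * (d * ev f z * d⁻¹) * a⁻¹ = q.1) := fun q hq => by
    obtain ⟨b, hb, hq⟩ := List.mem_flatMap.1 hq
    obtain ⟨a, ha, rfl⟩ := List.mem_map.1 hq
    have hb := h b hb
    simp only [bkOK, force_eq, lall_iff (f := fun b => b), List.forall_mem_cons] at hb
    obtain ⟨b1, b2, b3, -⟩ := hb
    have b2 := lall_iff.1 b2 a ha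
    simp only [lall_iff (f := fun b => b), List.forall_mem_cons, beq_iff] at b2
    obtain ⟨a1, a2, a3, -⟩ := b2
    have v := T.ev (lapp (lapp b.r z) (winv b.r))
    rw [ev_lapp, ev_lapp, ev_winv] at v
    have a4 := ev_mem_clo_of_wordIn (f := f) a1
    refine ⟨⟨_, IsZ.of_nz T.pos T.eq ?_ a2, a3⟩, ⟨ev f a.1 * ev f b.r, mul_mem (h2 a4) (h1 (ev_mem_clo_of_wordIn b1)),
      by group⟩, fun hK => ?_⟩
    · cases a.1 with
      | nil => simpa using v
      | cons x t =>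
        rw [map_mul, map_mul, ← ev_winv f (x :: t)]
        exact M.isZ_mul (M.isZ_mul (T.ev _) v) (T.ev _)
    · rcases or_of_rec b3 with b3 | b3
      · exact ⟨_, a4, _, ev_mem_clo_of_wordIn b3, rfl⟩
      · obtain ⟨c1, c2⟩ := brec_and.1 b3
        obtain ⟨ps, hps, c1⟩ := lany_iff.1 c1
        refine absurd (fun p hp' => ?_) (h5 ps hps)
        have hp2 := hp ps hps p hp'
        rw [← leq_iff.1 c1, lmap_eq] at hp'
        obtain ⟨c, hc, rfl⟩ := List.mem_map.1 hp'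
        refine dvd_of_ordC M T v (lall_iff.1 c2 c hc) hp2 h3 ?_
        simpa [mul_assoc] using mul_mem (mul_mem (inv_mem (h4 a4)) hK) (h4 a4)
  refine ⟨l.map Prod.fst, ?_, by rw [← e, List.length_map, List.length_map], fun y hy => ?_, fun y hy => ?_⟩
  · have := e ▸ nodupN_iff.1 hn
    rw [List.Nodup, List.pairwise_map] at this ⊢
    refine List.Pairwise.imp_of_mem (fun {p q} hp hq h e => h ?_) this
    obtain ⟨x, x1, x2⟩ := (k p hp).1
    obtain ⟨y, y1, y2⟩ := (k q hq).1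
    rw [← x2, ← y2, T.eq, x1.land_eq T.pos (e ▸ y1)]
  · obtain ⟨q, hq, rfl⟩ := List.mem_map.1 hy
    exact (k q hq).2.1
  · obtain ⟨q, hq, rfl⟩ := List.mem_map.1 hy
    exact (k q hq).2.2

end Enum

section Two
variable {G : Type*} [Group G] [Finite G]

theorem mem_of_full {C : Subgroup G} {z : G} {l : List G} (hn : l.Nodup) (h : ∀ y ∈ l, ∃ g ∈ C, g * z * g⁻¹ = y)
    (hc : Nat.card C ≤ l.length * Nat.card ↥(C ⊓ centralizer {z})) {g : G} (hg : g ∈ C) : g * z * g⁻¹ ∈ l := by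
  classical
  by_contra e
  have := mul_card_le_of_conj (A := C) (x := z) (g * z * g⁻¹ :: l) (List.nodup_cons.2 ⟨e, hn⟩)
    (List.forall_mem_cons.2 ⟨⟨g, hg, rfl⟩, h⟩)
  have h0 : 0 < Nat.card ↥(C ⊓ centralizer {z}) := Nat.card_pos
  rw [List.length_cons, add_mul] at this
  omega

theorem two_step {C D K H A B : Subgroup G} {x y : G} {l m : List G} {c e : ℕ} (l1 : l.Nodup)
    (l2 : ∀ v ∈ l, ∃ g ∈ C, g * x * g⁻¹ = v) (l3 : ∀ v ∈ l, v ∈ K → ∃ a ∈ A, ∃ d ∈ D, a * (d * x * d⁻¹) * a⁻¹ = v)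
    (m1 : m.Nodup) (m2 : ∀ v ∈ m, ∃ g ∈ D, g * y * g⁻¹ = v) (m3 : ∀ v ∈ m, v ∈ K → ∃ a ∈ B, a * y * a⁻¹ = v)
    (d1 : C ⊓ centralizer {x} ≤ D) (d2 : D ≤ C) (d3 : Nat.card D ≤ e * Nat.card ↥(C ⊓ centralizer {x}))
    (h1 : e * Nat.card C ≤ l.length * (m.length * c)) (h2 : c ≤ Nat.card ↥(D ⊓ centralizer {y}))
    (hA : A ≤ H ⊓ C) (hB : B ≤ H) (hH : H ≤ K) (hx : x ∈ H) (hy : y ∈ H) (hC : centralizer {y} ≤ H) :
    K ⊓ C ≤ H := fun g hg => by
  replace hg : g ∈ K ∧ g ∈ C := mem_inf.1 hg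
  have a0 : 0 < e := Nat.pos_of_ne_zero fun h => by
    rw [h, zero_mul] at d3; exact absurd d3 (not_le.2 Nat.card_pos)
  have a1 := mul_card_le_of_conj l l1 l2
  have a2 := (Nat.mul_le_mul_left m.length h2).trans (mul_card_le_of_conj m m1 m2)
  obtain ⟨a, ha, d, hd, e1⟩ := l3 _ (mem_of_full l1 l2 (Nat.le_of_mul_le_mul_left (h1.trans
    ((Nat.mul_le_mul_left _ (a2.trans d3)).trans_eq (mul_left_comm _ _ _))) a0) hg.2)
    (mul_mem (mul_mem hg.1 (hH hx)) (inv_mem hg.1))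
  have a3 : d⁻¹ * (a⁻¹ * g) ∈ D := d1 ⟨mul_mem (C.inv_mem (d2 hd)) (mul_mem (C.inv_mem (hA ha).2) hg.2),
    mem_centralizer_singleton_iff.2 (by rw [mul_assoc, mul_assoc, ← mul_inv_cancel_right (g * x) g⁻¹, ← e1]; group)⟩
  replace a3 : a⁻¹ * g ∈ D := by simpa using mul_mem hd a3
  have a4 : a⁻¹ * g ∈ K := mul_mem (inv_mem (hH (hA ha).1)) hg.1
  have a5 : 0 < l.length := Nat.pos_of_ne_zero fun h => by
    rw [h, zero_mul] at h1; exact absurd h1 (not_le.2 (Nat.mul_pos a0 Nat.card_pos))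
  obtain ⟨b, hb, e'⟩ := m3 _ (mem_of_full m1 m2 ((d3.trans (Nat.le_of_mul_le_mul_left
    ((mul_left_comm _ _ _).trans_le ((Nat.mul_le_mul_left e a1).trans h1)) a5)).trans (Nat.mul_le_mul_left _ h2)) a3)
      (mul_mem (mul_mem a4 (hH hy)) (inv_mem a4))
  have a6 : b⁻¹ * (a⁻¹ * g) ∈ H := hC (mem_centralizer_singleton_iff.2 (by
    rw [mul_assoc, ← mul_inv_cancel_right (a⁻¹ * g * y) (a⁻¹ * g)⁻¹, ← e']; group))
  simpa using mul_mem (hA ha).1 (mul_mem (hB hb) a6)

end Two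

section Chk
variable {n : ℕ} {mul : ℕ → ℕ → ℕ} {one F : ℕ} {E : ℕ → ℕ} {G : Type} [Group G] {ρ : G →* GL (Fin n) (ZMod 2)}
  {f : ℕ → G}

theorem lall_app {α : Type} {P : α → Bool} {a b : List α} (h1 : lall P a = true) (h2 : lall P b = true) :
    lall P (lapp a b) = true := by
  rw [lall_iff, lapp_eq] at *
  exact List.forall_mem_append.2 ⟨h1, h2⟩

/-- the words conjugate `x` to powers -/
noncomputable def nzOK (eq : List Nat → List Nat → Bool) (x : List Nat) (l : List (List Nat)) (ks : List Nat) : Bool :=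
  lall (fun w => lany (fun k => eq (lapp w x) (lapp (wpow x k) w)) ks) l

theorem Eqv.nz {G : Type*} [Group G] [Finite G] {f : ℕ → G} {eq : List ℕ → List ℕ → Bool} (he : Eqv f eq) {x : List ℕ}
    {l : List (List ℕ)} {ks : List ℕ} (h : nzOK eq x l ks = true) : clo f l ≤ normalizer (zpowers (ev f x) : Set G) :=
  clo_le.2 fun w hw => by
    obtain ⟨k, -, e⟩ := lany_iff.1 (lall_iff.1 h w hw)
    have := he _ _ e
    rw [ev_lapp, ev_lapp, ev_wpow] at this
    exact mem_norm_zpowers (mul_inv_eq_iff_eq_mul.2 this)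

/-- the side conditions of the enumeration in two steps -/
noncomputable def twoOK (cs as ds bs hs : List (List Nat)) (x y : List Nat) (l m : List Bk) (N c : Nat) : Bool :=
  lall (fun b => b) [lall (wordIn hs) (x :: y :: lapp as bs), lall (wordIn cs) as, lall (wordIn ds) bs,
    nodupN (hashes l), nodupN (hashes m), Nat.ble N (Nat.mul (llen (hashes l)) (Nat.mul (llen (hashes m)) c))]

theorem two_bk [NeZero n] [Finite G] (M : MatM 2 1 n mul one fun _ => true) (T : Tbl 2 1 n mul one F ρ f E)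
    {cs as ds bs hs big : List (List ℕ)} {x y : List ℕ} (hp : ∀ l ∈ big, ∀ p ∈ l, p.Prime) {l m : List Bk} {N c e : ℕ}
    (h1 : lall (bkOK mul one F E cs as ds hs x big) l = true) (h2 : lall (bkOK mul one F E ds bs [] hs y big) m = true)
    (h : twoOK cs as ds bs hs x y l m N c = true) {C D H : Subgroup G} (hC : clo f cs ≤ C) (hD : clo f ds ≤ D)
    (hH : clo f hs ≤ H) (d1 : C ⊓ centralizer {ev f x} ≤ D) (d2 : D ≤ C)
    (d3 : Nat.card D ≤ e * Nat.card ↥(C ⊓ centralizer {ev f x})) (hN : e * Nat.card C ≤ N)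
    (hc : c ≤ Nat.card ↥(D ⊓ centralizer {ev f y})) (hy : centralizer {ev f y} ≤ H)
    (K : Subgroup G) (hK : H ≤ K) (hb : ∀ l ∈ big, ¬ ∀ p ∈ l, p ∣ Nat.card K) : K ⊓ C ≤ H := by
  simp only [twoOK, lall_iff (f := fun b => b), lall_iff (f := wordIn _), List.forall_mem_cons, lapp_eq,
    List.forall_mem_append, ble_iff, llen_eq] at h
  obtain ⟨⟨a1, a2, a3, a4⟩, a5, a7, a9, a10, a11, -⟩ := h
  have k : ∀ {u v : List (List ℕ)}, (∀ w ∈ u, wordIn v w = true) → clo f u ≤ clo f v := fun h =>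
    clo_le_of_wordIn (lall_iff.2 h)
  obtain ⟨l', l1, l2, l3, l4⟩ := bk_step M T hp (lall_iff.1 h1) a9 hC ((k a5).trans hC) (hH.trans hK)
    ((k a3).trans (hH.trans hK)) hb
  obtain ⟨m', m1, m2, m3, m4⟩ := bk_step M T hp (lall_iff.1 h2) a10 hD ((k a7).trans hD) (hH.trans hK)
    ((k a4).trans (hH.trans hK)) hb
  refine two_step l1 l3 (fun v h1 h2 => let ⟨a, h3, d, h4, h5⟩ := l4 v h1 h2; ⟨a, h3, d, hD h4, h5⟩) m1 m3
    (fun v h1 h2 => ?_) d1 d2 d3 (l2 ▸ m2 ▸ hN.trans a11) hc (le_inf ((k a3).trans hH) ((k a5).trans hC))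
    ((k a4).trans hH) hK (hH (ev_mem_clo_of_wordIn a1)) (hH (ev_mem_clo_of_wordIn a2)) hy
  obtain ⟨a, h3, d, h4, h5⟩ := m4 v h1 h2
  rw [clo_nil, mem_bot] at h4
  exact ⟨a, h3, by simpa [h4] using h5⟩

theorem two_bk1 [NeZero n] [Finite G] (M : MatM 2 1 n mul one fun _ => true) (T : Tbl 2 1 n mul one F ρ f E)
    {cs as ds bs hs big : List (List ℕ)} {x y : List ℕ} (hp : ∀ l ∈ big, ∀ p ∈ l, p.Prime) {l m : List Bk} {N c : ℕ}
    (h1 : lall (bkOK mul one F E cs as ds hs x big) l = true) (h2 : lall (bkOK mul one F E ds bs [] hs y big) m = true)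
    (h : twoOK cs as ds bs hs x y l m N c = true)
    (h' : (Bool.rec false (com1 (eqM mul one F E) ds x) (lall (wordIn cs) ds) : Bool) = true) {C H : Subgroup G}
    (hC : clo f cs ≤ C) (hH : clo f hs ≤ H) (hN : Nat.card C ≤ N)
    (hc : c ≤ Nat.card ↥((C ⊓ centralizer {ev f x}) ⊓ centralizer {ev f y})) (hy : centralizer {ev f y} ≤ H)
    (K : Subgroup G) (hK : H ≤ K) (hb : ∀ l ∈ big, ¬ ∀ p ∈ l, p ∣ Nat.card K) : K ⊓ C ≤ H :=
  two_bk M T hp h1 h2 h hC (le_inf ((clo_le_of_wordIn (brec_and.1 h').1).trans hC) (Eqv.com1 T.eqv (brec_and.1 h').2))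
    hH le_rfl inf_le_left (one_mul _).ge ((one_mul _).trans_le hN) hc hy K hK hb

end Chk

end CF.J4F
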