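import Cfsg.Agent.J4F.X
import Cfsg.Agent.J4F.F
import Cfsg.Agent.J4F.ND
import Cfsg.Agent.Fgs1.PGroup

/-! The normaliser of the special group of order `2 ^ 15` in the fourth Janko group. -/

set_option autoImplicit false
set_option maxRecDepth 1000000
set_option maxHeartbeats 400000
set_option Elab.async false

namespace CF.J4F

open CF.Comp CF.Bt CF.Dce CF.Dce.J4 MulAction Subgroup Cfsg

/-- the letters -/
noncomputable abbrev fPf : ℕ → L := evs R PfT

theorem vPf : vOK RE 5 PfV PfS PfN PfT 22 = true := by decide +kernel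

theorem rPf : Reps (vD vPf) PfN fPf := reps_v Rtb vPf

/-- equality modulo the listed words -/
noncomputable def eqQ (eq : List Nat → List Nat → Bool) (T zs : List (List Nat)) (u w : List Nat) : Bool :=
  lany (fun z => eq (subst T u) (lapp (subst T w) z)) zs

theorem mod_cent {G : Type*} [Group G] {f : ℕ → G} {eq : List ℕ → List ℕ → Bool} (he : Eqv f eq) {T zs : List (List ℕ)}
    {m : ℕ} (hm : llen T = m) {Z : Subgroup G} (hz : ∀ z ∈ zs, ev f z ∈ Z) (hZ : Z ≤ centralizer (clo f T : Set G))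
    (h1 : comAll (eqQ eq T zs) (gensW m) (gensW m) = true) (h2 : lall (fun w => eqQ eq T zs (wpow w 2) []) (gensW m) = true) :
    _root_.commutator (clo f T) ≤ Z.subgroupOf (clo f T) ∧ ∀ x : clo f T, x ^ 2 ∈ Z.subgroupOf (clo f T) := by
  have hf : ∀ i, evs f T i ∈ clo f T := Comp.evs_mem fun _ => ev_mem_clo f
  have : (Z.subgroupOf (clo f T)).Normal := ⟨fun a ha g => mem_subgroupOf.2 (by
    rw [coe_mul, coe_mul, mem_centralizer_iff.1 (hZ (mem_subgroupOf.1 ha)) _ g.2, coe_inv, mul_inv_cancel_right]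
    exact ha)⟩
  let π := QuotientGroup.mk' (Z.subgroupOf (clo f T))
  have e : Eqv (fun i => π (Bt.sub (evs f T) hf i)) (eqQ eq T zs) := fun u w h => by
    obtain ⟨z, h3, h4⟩ := lany_iff.1 h
    rw [← map_ev, ← map_ev, eq_comm]
    refine QuotientGroup.eq.2 (mem_subgroupOf.2 ?_)
    rw [coe_mul, coe_inv, Bt.coe_ev_sub, Bt.coe_ev_sub, ev_evs, ev_evs, he _ _ h4, ev_lapp, inv_mul_cancel_left]
    exact hz z h3
  have t : ∀ x, π x ∈ clo (fun i => π (Bt.sub (evs f T) hf i)) (gensW m) := fun x => by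
    obtain ⟨u, hu⟩ := exists_subst_of_mem x.2
    rw [show x = ev (Bt.sub (evs f T) hf) u from Subtype.ext (by rw [Bt.coe_ev_sub, ev_evs, hu]), map_ev,
      clo_gensW fun i hi => by
        rw [show Bt.sub (evs f T) hf i = 1 from Subtype.ext (evs_eq_one (by rwa [← llen_eq, hm])), map_one]]
    exact ev_mem_closure _ u
  refine ⟨commutator_le.2 fun a _ b _ => (QuotientGroup.eq_one_iff _).1 ?_, fun x => (QuotientGroup.eq_one_iff _).1 ?_⟩
  · exact (map_commutatorElement π a b).trans (commutatorElement_eq_one_iff_mul_comm.2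
      (mem_centralizer_iff.1 (e.comAll h1 (t b)) _ (t a)))
  · exact (map_pow π x 2).trans (e.pow_eq_one h1 h2 _ (t x))

/-- the word for a commutator -/
noncomputable def cmW (q : List Nat × List Nat) : List Nat := lapp (lapp (lapp q.1 q.2) (winv q.1)) (winv q.2)

theorem Z3_L : Z3 ≤ L15 := clo_mono (by decide +kernel)

theorem L_H : L15 ≤ H := clo_H (by decide +kernel)

theorem Z3_eq : L15 ⊓ centralizer (L15 : Set L) = Z3 := (Comp.eq_of_le_of_card_le
  (le_inf Z3_L (eR.comAll (by decide +kernel))) ((card_le_of_le (inf_le_inf_right _ L_H)).trans (card_Z3 ▸ cenL))).symm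

theorem center_L : center L15 = Z3.subgroupOf L15 := by
  ext x
  rw [mem_subgroupOf, ← Z3_eq, mem_center_iff]
  exact ⟨fun h => ⟨x.2, fun y hy => congrArg Subtype.val (h ⟨y, hy⟩)⟩, fun h y => Subtype.ext (h.2 y y.2)⟩

theorem card_NL : Nat.card (normalizer (L15 : Set L)) ≤ 7 * (5 * 18874368) := by
  rw [J4.card_cls _ s]
  refine Nat.mul_le_mul ((Set.ncard_le_ncard (t := (Z3 : Set L) \ {1}) ?_).trans_eq ?_) (cent_s.1 ▸ norL)
  · rintro _ ⟨g, hg, rfl⟩
    have hs := Z3_eq.ge s_Z3
    refine ⟨Z3_eq.le ⟨(mem_normalizer_iff.1 hg _).1 hs.1, fun y hy => ?_⟩, by simpa using s_ne⟩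
    have := hs.2 _ ((mem_normalizer_iff''.1 hg y).1 hy)
    calc y * (g * s * g⁻¹) = g * (g⁻¹ * y * g * s) * g⁻¹ := by group
      _ = _ := by rw [this]; group
  · rw [Set.ncard_sdiff_singleton_of_mem (one_mem Z3), ← Nat.card_coe_set_eq, SetLike.coe_sort_coe, card_Z3]

theorem N0_le : clo R TN ≤ normalizer (L15 : Set L) := by
  have h : clo R [[259], [261], [287], [285], [245], [303], [263]] ≤ normalizer (L15 : Set L) := eR.nrmAll (us := NLu) (by decide +kernel)
  refine clo_le.2 fun w hw => ?_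
  rcases (by decide +kernel : ∀ w ∈ TN, w ∈ [[259], [261], [287], [285], [245], [303], [263]] ∨ w ∈ LW15) w hw with e | e
  exacts [h (ev_mem_clo R e), le_normalizer (ev_mem_clo R e)]

theorem N_spec : clo R TN = normalizer (L15 : Set L) ∧ Nat.card L15 = 2 ^ 15 ∧
    ∃ ψ : clo R TN →* Equiv.Perm (Fin 5) × SL3, Function.Surjective ψ ∧ ψ.ker = L15.subgroupOf _ := by
  have hA : clo fN (gensW 22) = clo R TN := Bt.clo_evs_gensW R TN (by decide +kernel)
  obtain ⟨φ, a1, a2⟩ := exists_ψ7 (c := ZcK) (by decide +kernel) (by decide +kernel) hA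
  obtain ⟨_, _, D, g, h, -⟩ := hasReps_perm (nets := PfN) (k := 5) (m := 22) (by decide +kernel) (by decide +kernel)
  obtain ⟨ψ, -, b2, b3⟩ := exists_surj rPf h (by decide) (A := clo R TN) hA (c := PfC) (m := 120) (by decide +kernel)
    card_S5.le (by decide +kernel)
  have c1 : clo fN [[7], [9]] ≤ centralizer (Z3 : Set L) := (cloS (vs := [[285], [245]]) (by decide +kernel)).trans_le
    (eR.comAll (by decide +kernel))
  have c2 := surj_prod (ψ := ψ) (eq_top_of_card_eq _ (le_antisymm (card_le_card_group _) (card_S5.trans_le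
    (le_trans (by decide +kernel) (h.chain_le (by decide) (c := PfC) (by decide +kernel) fun w hw =>
      ⟨⟨_, ev_clo TN w⟩, (a2 _).2 (c1 (ev_mem_clo_of_wordIn (by revert w; decide +kernel))),
        b3 w _ (by revert w; decide +kernel)⟩))))) a1
  have c3 : L15 ≤ clo R TN := clo_mono (by decide +kernel)
  have c4 : L15.subgroupOf _ ≤ (ψ.prod φ).ker := fun x hx => Prod.ext ((b2 x).2 fun i hi =>
    ((cloS (f := R) (T := PfT) (us := [[15], [17], [19], [21], [23], [25], [27], [29], [31], [33], [35], [37], [39], [41], [43]]) (by decide +kernel)).symm.trans_le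
      (clo_le.2 fun w hw => rPf.fixW hi (by revert w i; decide +kernel)) : L15 ≤ stabilizer L _) hx)
    ((a2 x).2 (le_centralizer_iff.1 (Z3_eq.ge.trans inf_le_right) hx))
  have d1 := card_ker_mul _ c2
  have d2 := card_le_of_le c4
  have d3 := card_le_of_le N0_le
  have d4 := card_NL
  have d5 := L15_ge
  rw [Nat.card_prod, card_S5, card_SL3] at d1
  rw [card_sub_of c3] at d2
  exact ⟨Comp.eq_of_le_of_card_le N0_le (by omega), by omega, _, c2,
    (Comp.eq_of_le_of_card_le c4 (by rw [card_sub_of c3]; omega)).symm⟩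

theorem special_L : IsSpecial 2 L15 := by
  obtain ⟨h1, h2⟩ := mod_cent eR (T := LW15) (zs := [[], [7], [269], [7, 269], [271], [7, 271], [269, 271], [7, 269, 271]]) (m := 15)
    (by decide +kernel) (Z := Z3) (fun z hz => ev_mem_clo_of_wordIn (by revert z; decide +kernel))
    (Z3_eq.ge.trans inf_le_right) (by decide +kernel) (by decide +kernel)
  have hp : IsPGroup 2 L15 := IsPGroup.of_card N_spec.2.1
  have h3 : _root_.commutator L15 = center L15 := by
    refine center_L ▸ le_antisymm h1 fun x hx => ?_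
    have : Z3 ≤ ⁅L15, L15⁆ := (eR.memAll (ws := lmap cmW [([273], [251]), ([273], [255]), ([273], [257])])
      (us := [[5], [1], [3]]) (by decide +kernel)).trans (clo_le.2 fun w hw => by
        obtain ⟨q, hq, rfl⟩ := List.mem_map.1 (lmap_eq _ _ ▸ hw)
        rw [cmW, ev_lapp, ev_lapp, ev_lapp, ev_winv, ev_winv]
        exact commutator_mem_commutator (ev_mem_clo R (by revert q; decide +kernel))
          (ev_mem_clo R (by revert q; decide +kernel)))
    obtain ⟨y, hy, e⟩ := (map_subtype_commutator L15).ge (this hx)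
    exact Subtype.ext e ▸ hy
  exact ⟨hp, le_antisymm (center_L ▸ CF.Fgs1.frattini_le_of h1 h2) (h3 ▸ CF.Fgs1.commutator_le_frattini hp), h3⟩

theorem norm5_le : normalizer (zpowers h5 : Set L) ≤ normalizer (L15 : Set L) :=
  norm_le_of (c5_eq.le.trans ((clo_mono (by decide +kernel)).trans N0_le)) (card_c5 ▸ rat5)
    (Eqv.cj eR nR (x := [285]) (l := [([], [285]), ([303], [285, 285]), ([303, 303], [285, 285, 285, 285]), ([303, 303, 303], [285, 285, 285])]) (by decide +kernel) fun q hq =>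
      le_inf ((clo_mono (by decide +kernel)).trans N0_le) R20_spec.2.1
        (ev_mem_clo_of_wordIn (hs := [[303], [285]]) (by revert q; decide +kernel)))

theorem norm7_le : normalizer (zpowers x7 : Set L) ≤ normalizer (L15 : Set L) :=
  norm_le_of (qm7.1.le.trans ((clo_mono (by decide +kernel)).trans N0_le)) (card_c7 ▸ rat7.1)
    (Eqv.cj eR nR (x := [259]) (l := [([], [259]), ([263], [259, 259]), ([263, 263], [259, 259, 259, 259])]) (by decide +kernel) fun q hq =>
      le_inf ((clo_mono (by decide +kernel)).trans N0_le)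
        (clo_single (f := R) [259] ▸ Eqv.nrmAll eR (t := [[259]]) (us := [[[1, 1]]]) (by decide +kernel))
        (ev_mem_clo_of_wordIn (hs := [[263]]) (by revert q; decide +kernel)))

theorem L_c5 : L15 ⊓ centralizer {h5} ≤ Z3 := fun x hx => by
  obtain ⟨φ, a1, a2⟩ := J7_spec
  obtain ⟨ψ, b1, b2⟩ := exists_ψ7 (ws := [[1], [5]]) (c := ZcJ) (by decide +kernel) (by decide +kernel) (A := J7)
    (cloS (by decide +kernel))
  have h1 := card_ker_mul φ a1
  have h2 := card_ker_mul ψ b1
  rw [show φ.ker = Z3.subgroupOf J7 from Subgroup.ext a2, card_sub_of Z3_J7, card_Z3, card_SL3] at h1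
  rw [card_SL3] at h2
  have h3 : J7 ≤ centralizer {h5} ⊓ H := le_inf idp5.2.1 (clo_H (by decide +kernel))
  obtain ⟨m, h4⟩ := card_dvd_of_le h3
  have h5' := card_dvd_of_le (inf_le_left : centralizer {h5} ⊓ H ≤ _)
  have h6 := two_mul_card_le (inf_le_left : centralizer {h5} ⊓ H ≤ _) fun h =>
    h5_not (h (mem_centralizer_singleton_iff.2 rfl)).2
  rw [card_c5, h4, h1] at h5' h6
  have h7 : x ∈ J7 := (Comp.eq_of_le_of_card_le h3 (by
    rw [h4, (by decide : ∀ m < 3, 8 * 168 * m ∣ 6720 → m = 1) m (by omega) h5', mul_one])).ge ⟨hx.2, L_H hx.1⟩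
  have := ker_eq_of_card Z3_J7 (fun x hx => (b2 x).2 (Z3_comm hx)) (by rw [card_Z3]; omega)
  exact this.le ((b2 ⟨x, h7⟩).2 (le_centralizer_iff.1 (Z3_eq.ge.trans inf_le_right) hx.1))

theorem ns15 {A K : Type*} [Group A] [Group K] [Finite A] {ψ : A →* K} {ι : A →* L} (hi : Function.Injective ι)
    (hk : ∀ x, ψ x = 1 ↔ ι x ∈ L15) {h y : A} (hh : ι h = h5) (hy : ι y = ev R [325]) (C : Subgroup A) :
    ¬ ψ.ker.IsComplement' C := fun hC => by
  obtain ⟨_, ha, e, he, rfl⟩ := lift_compl hC h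
  obtain ⟨_, hb, e', he', rfl⟩ := lift_compl hC y
  have one : ∀ k ∈ C, ψ k = 1 → k = 1 := fun k h1 h2 => disjoint_def.1 hC.disjoint h2 h1
  have o5 : orderOf h = 5 := (orderOf_injective ι hi h).symm.trans (hh ▸ ord5)
  have hy5 : ι y ∈ Subgroup.centralizer {h5} := hy ▸ idp5.2.1 y8_J7
  have c : ψ h * ψ y = ψ y * ψ h := by
    rw [← map_mul, ← map_mul, hi (show ι (h * y) = ι (y * h) by
      rw [map_mul, map_mul, hh]; exact (mem_centralizer_singleton_iff.1 hy5).symm)]
  have p1 : ψ (e * h) = ψ h := by rw [map_mul, he, one_mul]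
  have p2 : ψ (e' * y) = ψ y := by rw [map_mul, he', one_mul]
  have : Fact (Nat.Prime 5) := ⟨by norm_num⟩
  have o5' : orderOf (e * h) = 5 := orderOf_eq_prime (one _ (pow_mem ha 5) (by
    rw [map_pow, p1, ← map_pow, orderOf_dvd_iff_pow_eq_one.1 o5.dvd, map_one])) fun h1 =>
      h5_not (L_H (hh ▸ (hk h).1 (by rw [← p1, h1, map_one])))
  have c' : e * h * (e' * y) = e' * y * (e * h) := commutatorElement_eq_one_iff_mul_comm.1 (one _
    (mul_mem (mul_mem (mul_mem ha hb) (inv_mem ha)) (inv_mem hb)) (by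
      rw [map_commutatorElement, p1, p2, commutatorElement_eq_one_iff_mul_comm, c]))
  have m : ∀ x, ψ x = ψ h → x ∈ (centralizer {ψ y}).comap ψ := fun x hx => mem_centralizer_singleton_iff.2 (hx ▸ c)
  obtain ⟨a, h1, h2⟩ := conj_of_ord (G := (centralizer {ψ y}).comap ψ) (p := 5) (by norm_num) (fun h => not_sq_L
    (by decide) (h.trans ((card_subgroup_dvd_card _).trans (card_dvd_of_injective ι hi)))) (x := ⟨h, m _ rfl⟩)
    (y := ⟨_, m _ p1⟩) ((orderOf_coe _).symm.trans o5) ((orderOf_coe _).symm.trans o5')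
  obtain ⟨g, h3⟩ := isConj_iff.1 h2
  have h4 : g.1 * (e * h) * g.1⁻¹ = h ^ a := congrArg Subtype.val h3
  have h5' : ι (g.1 * (e' * y) * g.1⁻¹) ∈ Subgroup.centralizer {h5} := by
    rw [← cent_pow_eq (by norm_num) ord5 h1, ← hh, ← map_pow, ← h4, mem_centralizer_singleton_iff, ← map_mul, ← map_mul]
    congr 1
    calc _ = g.1 * (e' * y * (e * h)) * g.1⁻¹ := by group
      _ = _ := by rw [← c']; group
  refine y8_ns (e := ι (g.1 * (e' * y) * g.1⁻¹ * y⁻¹)) (L_c5 ⟨(hk _).1 ?_, ?_⟩) ?_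
  · rw [map_mul, map_mul, map_mul, p2, mem_centralizer_singleton_iff.1 g.2]
    simp
  · rw [map_mul, map_inv]
    exact Subgroup.mul_mem _ h5' (Subgroup.inv_mem _ hy5)
  · rw [← hy, ← map_mul, inv_mul_cancel_right, ← map_pow, conj_pow, one _ (pow_mem hb 4) (by
      rw [map_pow, p2, ← map_pow]
      exact (hk _).2 (by rw [map_pow, hy, y8_pow]; exact Z3_L s_Z3))]
    simp

end CF.J4F
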