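import Cfsg.Agent.Bt.Defs
import Cfsg.Agent.Dce.J4.Mat

/-! Data for `GL₂(3)`. -/

set_option autoImplicit false
set_option maxRecDepth 1000000
set_option maxHeartbeats 0
set_option Elab.async false

namespace CF.J4F

open CF.Comp CF.Bt CF.Dce CF.Dce.J4

noncomputable def GlV : List Nat := [(nat_lit 114),
  (nat_lit 100),
  (nat_lit 176),
  (nat_lit 225),
  (nat_lit 91),
  (nat_lit 15),
  (nat_lit 57),
  (nat_lit 250),
  (nat_lit 248),
  (nat_lit 65),
  (nat_lit 165),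
  (nat_lit 235),
  (nat_lit 78),
  (nat_lit 65),
  (nat_lit 85),
  (nat_lit 232),
  (nat_lit 106),
  (nat_lit 46),
  (nat_lit 120),
  (nat_lit 135),
  (nat_lit 153),
  (nat_lit 102),
  (nat_lit 184),
  (nat_lit 150),
  (nat_lit 106),
  (nat_lit 9),
  (nat_lit 156),
  (nat_lit 36),
  (nat_lit 89),
  (nat_lit 77),
  (nat_lit 153),
  (nat_lit 9),
  (nat_lit 113),
  (nat_lit 27),
  (nat_lit 45),
  (nat_lit 86),
  (nat_lit 78),
  (nat_lit 184),
  (nat_lit 34),
  (nat_lit 54),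
  (nat_lit 163),
  (nat_lit 78),
  (nat_lit 120),
  (nat_lit 172),
  (nat_lit 12),
  (nat_lit 48),
  (nat_lit 85),
  (nat_lit 99),
  (nat_lit 178),
  (nat_lit 60),
  (nat_lit 204),
  (nat_lit 114),
  (nat_lit 36),
  (nat_lit 198),
  (nat_lit 90),
  (nat_lit 231),
  (nat_lit 29),
  (nat_lit 45),
  (nat_lit 231),
  (nat_lit 92),
  (nat_lit 165),
  (nat_lit 235),
  (nat_lit 163),
  (nat_lit 240),
  (nat_lit 210),
  (nat_lit 85),
  (nat_lit 113),
  (nat_lit 33),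
  (nat_lit 139),
  (nat_lit 101),
  (nat_lit 209),
  (nat_lit 195),
  (nat_lit 226),
  (nat_lit 147),
  (nat_lit 125),
  (nat_lit 60),
  (nat_lit 163),
  (nat_lit 95),
  (nat_lit 139),
  (nat_lit 204),
  (nat_lit 231),
  (nat_lit 150),
  (nat_lit 23),
  (nat_lit 136),
  (nat_lit 232),
  (nat_lit 92),
  (nat_lit 187),
  (nat_lit 72),
  (nat_lit 95),
  (nat_lit 96),
  (nat_lit 141),
  (nat_lit 159),
  (nat_lit 3),
  (nat_lit 9),
  (nat_lit 149),
  (nat_lit 225),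
  (nat_lit 39),
  (nat_lit 202),
  (nat_lit 111),
  (nat_lit 202),
  (nat_lit 170),
  (nat_lit 237),
  (nat_lit 195),
  (nat_lit 235),
  (nat_lit 150),
  (nat_lit 111),
  (nat_lit 72),
  (nat_lit 116),
  (nat_lit 141),
  (nat_lit 240),
  (nat_lit 240),
  (nat_lit 139)]
noncomputable def GlS : Net := (Net.cons (nat_lit 2) (nat_lit 32) (Net.cons (nat_lit 4) (nat_lit 2) (Net.cons (nat_lit 2) (nat_lit 2) (Net.cons (nat_lit 1) (nat_lit 21) Net.nil))))
noncomputable def GlN_0 : Net := (Net.cons (nat_lit 4) (nat_lit 2) (Net.cons (nat_lit 2) (nat_lit 17) Net.nil))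
noncomputable def GlN_1 : Net := (Net.cons (nat_lit 1) (nat_lit 68) (Net.cons (nat_lit 4) (nat_lit 9) (Net.cons (nat_lit 2) (nat_lit 2) (Net.cons (nat_lit 1) (nat_lit 84) Net.nil))))
noncomputable def GlN_2 : Net := (Net.cons (nat_lit 1) (nat_lit 80) (Net.cons (nat_lit 4) (nat_lit 6) (Net.cons (nat_lit 2) (nat_lit 35) (Net.cons (nat_lit 1) (nat_lit 4) Net.nil))))
noncomputable def GlN : List Net := [GlN_0, GlN_1, GlN_2]
noncomputable def GlT : List (List Nat) := [[301], [43], [309]]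
noncomputable def GlC : List Lvl := [⟨0, [[1], [5]], 3⟩, ⟨2, [[6, 3, 5], [6, 1, 5]], 2⟩]

end CF.J4F
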