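import Cfsg.Agent.J4F.X
import Cfsg.Agent.J4F.F
import Cfsg.Agent.J4F.UD

/-! Elements of large prime order and the conjugacy classes of the fourth Janko group. -/

set_option autoImplicit false
set_option maxRecDepth 1000000
set_option maxHeartbeats 400000
set_option Elab.async false

namespace CF.J4F

open CF.Comp CF.Bt CF.Dce CF.Dce.J4 MulAction Subgroup

/-- the letters -/
noncomputable abbrev fGl : ℕ → L := evs R GlT

theorem vGl : vOK RE 8 GlV GlS GlN GlT 3 = true := by decide +kernel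

theorem rGl : Reps (vD vGl) GlN fGl := reps_v Rtb vGl

/-- a second element of order eleven -/
noncomputable abbrev y11 : L := ev R [299]

/-- a Sylow subgroup -/
noncomputable abbrev U11 : Subgroup L := clo R [[307], [299], [297]]

/-- a subgroup `GL₂(3)` -/
noncomputable abbrev K48 : Subgroup L := clo R [[301], [43], [311], [309], [7]]

theorem pcU : Pc R 11 [[307], [299], [297]] := eR.pc (c := [([], [[4, 4, 1], [3]]), ([], [[1]]), ([], [])]) (by decide +kernel)

theorem card_U : Nat.card U11 = 11 ^ 3 ∧ ¬ IsMulCommutative U11 :=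
  card_cube (by norm_num) (pcU.pgroup (by decide)) (pcU.card_le (by decide)) (a := ev R [299]) (b := ev R [307])
    (ev_mem_clo R (by decide)) (ev_mem_clo R (by decide)) (by
      rw [← ev_lapp, ← ev_lapp]; exact nR _ _ (by decide +kernel))

theorem ord_y : orderOf y11 = 11 := orderOf_ordW eR nR (by decide +kernel)

theorem cH11 {x : L} (h : x ∈ H) (hx : orderOf x = 11) : Nat.card (centralizer {x}) ≤ 242 := by
  obtain ⟨a, h1, h2⟩ := conj_of_ord_in (by norm_num) (by rw [card_H]; norm_num) (mem_H Ztb (w := w11) (by decide +kernel))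
    h pr11.1 hx
  exact (card_cent_of_conj h2).trans_le (CB.pow (by norm_num) pr11 h1).2

theorem y0_y : IsConj (ev R [219]) y11 := Eqv.isConj eR (s := [295]) (by decide +kernel)

theorem cy_le : Nat.card (centralizer {y11}) ≤ 242 := (card_cent_of_conj y0_y).ge.trans
  (cH11 (mem_H Rtb (by decide +kernel)) ((order_of_conj y0_y).trans ord_y))

theorem U_t : U11 ≤ centralizer {t11} := Eqv.com1 eR (by decide +kernel)

theorem nc_ty (k : ℕ) : ¬ IsConj y11 (t11 ^ k) :=
  nc_of_card cy_le (lt_of_lt_of_le (by rw [card_U.1]; norm_num) (card_le_of_le (U_t.trans (cent_pow_le _ k))))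

theorem K48_iso [Fact (Nat.Prime 3)] : Nonempty (K48 ≃* GL (Fin 2) (ZMod 3)) ∧ Nat.card K48 = 48 := by
  have hc : Nat.card (GL (Fin 2) (ZMod 3)) = 48 := by rw [Classical.card_GL_two, ZMod.card]; rfl
  obtain ⟨_, _, D, g, h, -⟩ := hasReps_glVec (p := 3) (d := 2) (m := 8) (k := 3) (vt := [1, 2, 3, 4, 5, 6, 7, 8])
    (Ms := [[3, 1], [3, 8], [4, 7]]) (Ns := [[3, 1], [8, 1], [8, 5]]) (I := [1, 3]) (nets := GlN) (by decide +kernel)
  obtain ⟨ψ, h1, -⟩ := exists_surj rGl h (by decide) (ws := [[1], [3], [5]]) (A := K48) ((cloS (vs := GlT)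
    (by decide +kernel)).trans (le_antisymm (clo_mono (by decide +kernel)) (eR.memAll
      (us := [[1], [3], [1, 6, 1], [5], [5, 5]]) (by decide +kernel)))) (c := GlC) (m := 48) (by decide +kernel) hc.le
    (by decide +kernel)
  obtain ⟨e⟩ := equiv_of_surj ψ h1 (hc ▸ ((Eqv.step eR (p := 2) (u := []) (us := [[2], [6], [4], [7]]) (by decide) (by decide +kernel)
    (Eqv.step eR (p := 3) (u := []) (us := [[3, 1], [1], [5]]) (by decide) (by decide +kernel)
    (Eqv.step eR (p := 2) (u := [3]) (us := [[2], [3]]) (by decide) (by decide +kernel)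
    (Eqv.step eR (p := 2) (u := [1]) (us := [[1]]) (by decide) (by decide +kernel)
    (Eqv.step eR (p := 2) (u := []) (us := []) (by decide) (by decide +kernel)
    (clo_nil R ▸ card_bot.le)))))) : Nat.card K48 ≤ 1 * 2 * 2 * 2 * 3 * 2))
  exact ⟨⟨e⟩, (Nat.card_congr e.toEquiv).trans hc⟩

theorem K48_le : clo R ([313] :: [[301], [43], [311], [309], [7]]) ≤ normalizer (U11 : Set L) :=
  eR.nrmAll (us := [[[5, 1, 1, 1], [3, 3, 3], [6, 6]], [[6, 4, 2], [3], [6]], [[6, 4, 2], [1], [5]], [[2, 2, 4, 2, 4, 2, 2], [1, 3, 3, 3, 3, 3, 1], [5]], [[4, 4, 4, 1, 4, 4, 1, 1], [1, 4, 4, 4, 1], [5]], [[2], [4], [5]]]) (by decide +kernel)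

theorem dvd_NU : 319440 ∣ Nat.card (normalizer (U11 : Set L)) :=
  have : Fact (Nat.Prime 3) := ⟨by norm_num⟩
  Nat.lcm_dvd (Nat.lcm_dvd (card_U.1 ▸ card_dvd_of_le (le_normalizer (H := U11)))
    (K48_iso.2 ▸ card_dvd_of_le ((clo_mono (by decide +kernel)).trans K48_le)))
    (orderOf_ordW eR nR (w := [313]) (o := 5) (by decide +kernel) ▸
      orderOf_dvd_natCard _ (K48_le (ev_mem_clo R List.mem_cons_self)))

theorem cls_y : (∀ x ∈ U11, x ∉ zpowers t11 → IsConj y11 x) ∧ Nat.card (centralizer {y11}) = 242 := by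
  have h1 := J4.card_cls (normalizer (U11 : Set L)) y11
  have h2 : J4.cls (normalizer (U11 : Set L)) y11 ⊆ (U11 : Set L) \ zpowers t11 := by
    rintro _ ⟨g, hg, rfl⟩
    refine ⟨(mem_normalizer_iff.1 hg _).1 (ev_mem_clo R (by decide)), fun h => ?_⟩
    obtain ⟨k, hk⟩ := mem_powers_iff_mem_zpowers.2 h
    exact nc_ty k (isConj_iff.2 ⟨g, hk.symm⟩)
  have h3 : ((U11 : Set L) \ zpowers t11).ncard = 1320 := by
    rw [Set.ncard_sdiff (zpowers_le.2 (ev_mem_clo R (by decide)) : zpowers t11 ≤ U11), ← Nat.card_coe_set_eq,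
      ← Nat.card_coe_set_eq, SetLike.coe_sort_coe, SetLike.coe_sort_coe, card_U.1, Nat.card_zpowers, ord_t]
    rfl
  have h4 := Set.ncard_le_ncard h2
  have h5 := Nat.le_of_dvd Nat.card_pos dvd_NU
  have h6 := card_le_of_le (inf_le_right : normalizer (U11 : Set L) ⊓ centralizer {y11} ≤ _)
  have h7 := cy_le
  rw [h3] at h4
  rw [h1] at h5
  refine ⟨fun x hx hx' => ?_, by nlinarith⟩
  obtain ⟨g, -, e⟩ := (Set.eq_of_subset_of_ncard_le h2 (by rw [h3]; nlinarith)).ge ⟨hx, hx'⟩
  exact isConj_iff.2 ⟨g, e⟩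

theorem rat11 : Nat.card (normalizer (zpowers t11 : Set L)) = 10 * Nat.card (centralizer {t11}) ∧
    ∀ a, ¬ 11 ∣ a → IsConj t11 (t11 ^ a) := by
  obtain ⟨e, h1, h2, h3⟩ := rat_data (by norm_num) ord_t
  have h4 := (h3 2 (by decide)).1 (ev_wpow R [297] 2 ▸ Eqv.isConj eR (s := [313, 301]) (by decide +kernel))
  obtain rfl := (by decide +kernel : ∀ e ∈ Nat.divisors 10, 2 ^ e % 11 = 1 → e = 10) e
    (Nat.mem_divisors.2 ⟨h1, by decide⟩) h4
  refine ⟨h2, fun a ha => (h3 a ha).2 ?_⟩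
  rw [Nat.pow_mod]
  exact (by decide : ∀ r < 11, r ≠ 0 → r ^ 10 % 11 = 1) _ (Nat.mod_lt _ (by decide)) fun h => ha (Nat.dvd_of_mod_eq_zero h)

theorem conjU {P : Subgroup L} (hP : IsPGroup 11 P) : ∃ g, ∀ x ∈ P, g * x * g⁻¹ ∈ U11 :=
  let ⟨g, _, h⟩ := exists_conj_le (P := U11) (H := ⊤) le_top (p := 11) (by norm_num) (m := 65195770883604480)
    (by rw [card_top, card_L, card_U.1]; norm_num) (by norm_num) le_top hP
  ⟨g, h⟩

theorem conj11 {x : L} (hx : orderOf x = 11) : IsConj x t11 ∨ IsConj x y11 := by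
  obtain ⟨g, h⟩ := conjU (P := zpowers x) (IsPGroup.of_card (n := 1) (by rw [Nat.card_zpowers, hx]; rfl))
  by_cases h1 : g * x * g⁻¹ ∈ zpowers t11
  · obtain ⟨k, hk⟩ := mem_powers_iff_mem_zpowers.2 h1
    refine .inl ((isConj_iff.2 ⟨g, hk.symm⟩).trans (rat11.2 k fun e => ?_).symm)
    rw [orderOf_of_conj hk.symm, orderOf_eq_one_iff.2 (orderOf_dvd_iff_pow_eq_one.1 (ord_t ▸ e))] at hx
    omega
  · exact .inr ((isConj_iff.2 ⟨g, rfl⟩).trans (cls_y.1 _ (h x (mem_zpowers x)) h1).symm)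

/-! ### prime divisors of orders of centralisers -/

theorem dvd_of_all {q c : ℕ} (hq : q.Prime) (h : ∀ z : L, orderOf z = q → Nat.card (centralizer {z}) ∣ c) {y : L}
    (hy : q ∣ Nat.card (centralizer {y})) : orderOf y ∣ c :=
  let ⟨z, h1, h2⟩ := exists_ord_cent hq hy; (ord_dvd_cent h2).trans (h z h1)

theorem dv2 {y : L} (h : 2 ∣ Nat.card (centralizer {y})) : orderOf y ∣ 21799895040 :=
  dvd_of_all (by norm_num) (fun _ hz => (inv_two hz).elim (fun e => by rw [← card_cent_of_conj e, card_cent_s])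
    fun e => by rw [← card_cent_of_conj e, cent_u.2]; norm_num) h

theorem dv3 {y : L} (h : 3 ∣ Nat.card (centralizer {y})) : orderOf y ∣ 2661120 :=
  dvd_of_all (by norm_num) (fun _ hz => by rw [card_cent_of_conj (conj3 hz), card_c3]) h

theorem dvp {q c : ℕ} (hq : q.Prime) (h : q ∈ [5, 7, 23, 29, 31, 37, 43]) {x : L} (hx : orderOf x = q)
    (hc : Nat.card (centralizer {x}) = c) {y : L} (hy : q ∣ Nat.card (centralizer {y})) : orderOf y ∣ c :=
  dvd_of_all hq (fun _ hz => by rw [card_cent_of_ord hq (not_sq_L h) hx hz, hc]) hy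

theorem dv121 {y : L} (h : 11 ^ 2 ∣ Nat.card (centralizer {y})) : orderOf y ∣ 242 := by
  have : Fact (Nat.Prime 11) := ⟨by norm_num⟩
  obtain ⟨P, hP⟩ := Sylow.exists_subgroup_card_pow_prime 11 h
  rw [← card_map_of_injective (centralizer {y}).subtype_injective] at hP
  obtain ⟨g, hg⟩ := conjU (IsPGroup.of_card hP)
  by_contra hn
  have := Nat.card_le_card_of_injective (β := zpowers t11) (fun x : P.map (centralizer {y}).subtype =>
    ⟨g * x * g⁻¹, not_not.1 fun h => hn (by
      rw [← cls_y.2, card_cent_of_conj ((cls_y.1 _ (hg x x.2) h).trans (isConj_iff.2 ⟨g, rfl⟩).symm)]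
      exact ord_dvd_cent (mem_centralizer_singleton_iff.1 (map_subtype_le _ x.2)).symm)⟩) fun a b e => by
        simpa using e
  rw [hP, Nat.card_zpowers, ord_t] at this
  omega

theorem card_c23 : Nat.card (centralizer {ev Z w23}) = 23 := by
  obtain ⟨m, hm⟩ := pr23.1 ▸ ord_dvd_cent (x := ev Z w23) rfl
  have h1 := pr23.2
  have h2 := fun h => pr23.1 ▸ dv2 (y := ev Z w23) h
  have h3 := fun h => pr23.1 ▸ dv3 (y := ev Z w23) h
  have h4 : 0 < Nat.card (centralizer {ev Z w23}) := Nat.card_pos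
  omega

theorem big {y : L} (h : orderOf y ∈ [29, 31, 37, 43]) : ∃ a ∈ [1, 11], ∃ b ∈ [1, 29], ∃ c ∈ [1, 31], ∃ d ∈ [1, 37],
    ∃ e ∈ [1, 43], Nat.card (centralizer {y}) = a * (b * (c * (d * e))) := by
  have k : ∀ c ∈ [21799895040, 2661120, 6720, 840, 23, 242], ¬ orderOf y ∣ c := by
    revert h; generalize orderOf y = o; revert o; decide +kernel
  have h0 : Nat.card (centralizer {y}) ∣ 2 ^ 21 * (3 ^ 3 * (5 ^ 1 * (7 ^ 1 * (23 ^ 1 * (11 ^ 3 * (29 * (31 * (37 * 43)))))))) :=
    cent_dvd y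
  have h1 := dvd_of_not_dvd (j := 1) (by norm_num) (dvd_of_not_dvd' (by norm_num) (dvd_of_not_dvd' (by norm_num)
    (dvd_of_not_dvd' (by norm_num) (dvd_of_not_dvd' (by norm_num) (dvd_of_not_dvd' (by norm_num) h0
      fun e => k _ (by decide) (dv2 e)) fun e => k _ (by decide) (dv3 e))
      fun e => k _ (by decide) (dvp (by norm_num) (by decide) ord5 card_c5 e))
      fun e => k _ (by decide) (dvp (by norm_num) (by decide) ord7 card_c7 e))
      fun e => k _ (by decide) (dvp (by norm_num) (by decide) pr23.1 card_c23 e)) fun e => k _ (by decide) (dv121 e)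
  have p : ∀ {q a : ℕ}, q.Prime → a ∣ q → a ∈ [1, q] := fun hq ha => by simpa using (Nat.dvd_prime hq).1 ha
  obtain ⟨a, _, ha, h2, e1⟩ := Nat.dvd_mul.1 h1
  obtain ⟨b, _, hb, h3, rfl⟩ := Nat.dvd_mul.1 h2
  obtain ⟨c, _, hc, h4, rfl⟩ := Nat.dvd_mul.1 h3
  obtain ⟨d, e, hd, he, rfl⟩ := Nat.dvd_mul.1 h4
  exact ⟨a, p (by norm_num) ha, b, p (by norm_num) hb, c, p (by norm_num) hc, d, p (by norm_num) hd, e,
    p (by norm_num) he, e1.symm⟩

theorem big' {y : L} {p : ℕ} (hp : p.Prime) (h : p ∈ [29, 31, 37, 43]) (hy : orderOf y = p) {g : ℕ} {l : List ℕ}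
    (hg : ¬ p ∣ g ∧ (g = 1 ∨ ¬ IsConj y (y ^ g))) (hl : ∀ q ∈ l, ¬ q ∣ Nat.card (centralizer {y}))
    (k : ∀ a ∈ [1, 11], ∀ b ∈ [1, 29], ∀ c ∈ [1, 31], ∀ d ∈ [1, 37], ∀ e ∈ [1, 43], ∀ r ∈ (p - 1).divisors,
      86775571046077562880 / (r * (a * (b * (c * (d * e))))) % p = 1 → (g = 1 ∨ g ^ r % p ≠ 1) →
        (∀ q ∈ l, ¬ q ∣ a * (b * (c * (d * e)))) → a * (b * (c * (d * e))) = p) :
    Nat.card (centralizer {y}) = p := by
  obtain ⟨a, ha, b, hb, c, hc, d, hd, e, he, h1⟩ := big (hy ▸ h)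
  obtain ⟨r, h2, -, h3, -, h4⟩ := rat_syl hp (not_sq_L (by revert h; generalize p = o; revert o; decide)) hy card_L h1
  exact h1.trans (k a ha b hb c hc d hd e he r h2 h3 (hg.2.imp_right fun n e => n ((h4 g hg.1).2 e)) (h1 ▸ hl))

theorem ord43 : orderOf (ev R [19]) = 43 := orderOf_ordW eR nR (by decide +kernel)

theorem ord31 : orderOf (ev R [17]) = 31 := orderOf_ordW eR nR (by decide +kernel)

theorem ord37 : orderOf (ev R [15]) = 37 := orderOf_ordW eR nR (by decide +kernel)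

theorem ord29 : orderOf (ev R [21]) = 29 := orderOf_ordW eR nR (by decide +kernel)

theorem card_c43 : Nat.card (centralizer {ev R [19]}) = 43 :=
  big' (by norm_num) (by decide) ord43 (g := 36) (l := []) ⟨by decide, .inr (ev_wpow R [19] 36 ▸ not_conj_tr Rtb (by decide +kernel))⟩ (by simp)
    (by decide +kernel)

theorem card_c31 : Nat.card (centralizer {ev R [17]}) = 31 :=
  big' (by norm_num) (by decide) ord31 (g := 25) (l := [43]) ⟨by decide, .inr (ev_wpow R [17] 25 ▸ not_conj_tr Rtb (by decide +kernel))⟩ (by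
    simpa only [List.forall_mem_cons, List.not_mem_nil, false_imp_iff, implies_true, and_true] using fun e => absurd (ord31 ▸ dvp (by norm_num) (by decide) ord43 card_c43 e) (by decide))
    (by decide +kernel)

theorem card_c37 : Nat.card (centralizer {ev R [15]}) = 37 :=
  big' (by norm_num) (by decide) ord37 (g := 1) (l := [43, 31]) ⟨by decide, .inl rfl⟩ (by
    simpa only [List.forall_mem_cons, List.not_mem_nil, false_imp_iff, implies_true, and_true] using ⟨fun e => absurd (ord37 ▸ dvp (by norm_num) (by decide) ord43 card_c43 e) (by decide),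
      fun e => absurd (ord37 ▸ dvp (by norm_num) (by decide) ord31 card_c31 e) (by decide)⟩)
    (by decide +kernel)

theorem card_c29 : Nat.card (centralizer {ev R [21]}) = 29 :=
  big' (by norm_num) (by decide) ord29 (g := 1) (l := [43, 31, 37]) ⟨by decide, .inl rfl⟩ (by
    simpa only [List.forall_mem_cons, List.not_mem_nil, false_imp_iff, implies_true, and_true] using ⟨fun e => absurd (ord29 ▸ dvp (by norm_num) (by decide) ord43 card_c43 e) (by decide),
      fun e => absurd (ord29 ▸ dvp (by norm_num) (by decide) ord31 card_c31 e) (by decide),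
      fun e => absurd (ord29 ▸ dvp (by norm_num) (by decide) ord37 card_c37 e) (by decide)⟩)
    (by decide +kernel)

theorem ct_le : Nat.card (centralizer {t11}) ≤ 31944 := by
  have h0 : Nat.card (centralizer {t11}) ∣
      5 ^ 1 * (7 ^ 1 * (23 ^ 1 * (29 ^ 1 * (31 ^ 1 * (37 ^ 1 * (43 ^ 1 * (3 ^ 3 * (2 ^ 21 * 11 ^ 3)))))))) := cent_dvd _
  have k : ∀ c ∈ [6720, 840, 23, 29, 31, 37, 43], ¬ orderOf t11 ∣ c := by rw [ord_t]; decide
  have h1 := dvd_of_not_dvd (j := 1) (by norm_num) (dvd_of_not_dvd' (by norm_num) (dvd_of_not_dvd' (by norm_num)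
    (dvd_of_not_dvd' (by norm_num) (dvd_of_not_dvd' (by norm_num) (dvd_of_not_dvd' (by norm_num)
    (dvd_of_not_dvd' (by norm_num) (dvd_of_not_dvd' (by norm_num) h0
      fun e => k _ (by decide) (dvp (by norm_num) (by decide) ord5 card_c5 e))
      fun e => k _ (by decide) (dvp (by norm_num) (by decide) ord7 card_c7 e))
      fun e => k _ (by decide) (dvp (by norm_num) (by decide) pr23.1 card_c23 e))
      fun e => k _ (by decide) (dvp (by norm_num) (by decide) ord29 card_c29 e))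
      fun e => k _ (by decide) (dvp (by norm_num) (by decide) ord31 card_c31 e))
      fun e => k _ (by decide) (dvp (by norm_num) (by decide) ord37 card_c37 e))
      fun e => k _ (by decide) (dvp (by norm_num) (by decide) ord43 card_c43 e)) fun e => by
    obtain ⟨z, hz, h2, h3⟩ := exists_ppow (by norm_num) e
    obtain ⟨g, h4⟩ := isConj_iff.1 (conj3 h2)
    rw [inf_comm, ← card_inf_cent_conj g, h4, card_inf_cent_of_ord (p := 11) (by norm_num) (by rw [card_c3]; norm_num) t_ω
      ((card_inf_conj g _ z _ (by rw [h4])).2 (mem_centralizer_singleton_iff.1 hz).symm) ord_t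
      ((orderOf_of_conj rfl).symm.trans ord_t)] at h3
    have h5 := ord_t ▸ orderOf_dvd_natCard (centralizer {ω} ⊓ centralizer {t11}) (x := t11)
      ⟨t_ω, mem_centralizer_singleton_iff.2 rfl⟩
    have := Nat.le_of_dvd Nat.card_pos (Nat.lcm_dvd h3 h5)
    exact absurd (this.trans c3t) (by decide)
  rw [mul_left_comm] at h1
  refine Nat.le_of_dvd (by decide) (dvd_of_not_dvd (j := 3) (by norm_num) h1 fun e => ?_)
  obtain ⟨z, hz, h2, h3⟩ := exists_ppow (by norm_num) e
  have ho := fun g : L => (orderOf_of_conj (x := g) rfl).symm.trans ord_t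
  rcases inv_two h2 with h | h <;> obtain ⟨g, h4⟩ := isConj_iff.1 h.symm
  · rw [inf_comm, ← card_inf_cent_conj g, h4, cent_s.1, card_inf_cent_of_ord (p := 11) (by norm_num)
      (by rw [card_B]; norm_num) t_B ((card_inf_conj g _ z _ (by rw [h4, cent_s.1])).2
        (mem_centralizer_singleton_iff.1 hz).symm) ord_t (ho g)] at h3
    have h5 := ord_t ▸ orderOf_dvd_natCard (B ⊓ centralizer {t11}) (x := t11) ⟨t_B, mem_centralizer_singleton_iff.2 rfl⟩
    have h6 := ord_ω ▸ orderOf_dvd_natCard (B ⊓ centralizer {t11}) (x := ω)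
      ⟨ω_B, mem_centralizer_singleton_iff.2 (mem_centralizer_singleton_iff.1 t_ω).symm⟩
    have := Nat.le_of_dvd Nat.card_pos (Nat.lcm_dvd (Nat.lcm_dvd h3 h5) h6)
    exact absurd (this.trans cBt) (by decide)
  · exact nc_of_card (cH11 (cent_u.1 ((card_inf_conj g _ z _ (by rw [h4])).2
      (mem_centralizer_singleton_iff.1 hz).symm)) (ho g)) (lt_of_lt_of_le (by rw [card_U.1]; norm_num)
        (card_le_of_le U_t)) (isConj_iff.2 ⟨g, rfl⟩).symm

theorem card_NU : Nat.card (normalizer (U11 : Set L)) = 319440 := by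
  refine le_antisymm ((card_le_of_le fun g hg => ?_).trans (rat11.1.trans_le (Nat.mul_le_mul_left 10 ct_le)))
    (Nat.le_of_dvd Nat.card_pos dvd_NU)
  obtain ⟨k, hk⟩ := mem_powers_iff_mem_zpowers.2 (not_not.1 fun h => nc_ty 1 (by
    rw [pow_one]
    exact (cls_y.1 _ ((mem_normalizer_iff.1 hg t11).1 (ev_mem_clo R (by decide))) h).trans (isConj_iff.2 ⟨g, rfl⟩).symm))
  exact mem_norm_zpowers hk.symm

theorem exp_U : Monoid.exponent U11 = 11 := by
  have : Nontrivial U11 := Finite.one_lt_card_iff_nontrivial.1 (by rw [card_U.1]; norm_num)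
  refine (Monoid.exponent_eq_prime_iff (by norm_num)).2 fun x hx => ?_
  have : Fact (Nat.Prime 11) := ⟨by norm_num⟩
  refine orderOf_eq_prime (Subtype.ext (orderOf_dvd_iff_pow_eq_one.1 ?_)) hx
  by_cases h : x.1 ∈ zpowers t11
  · exact ord_t ▸ orderOf_dvd_of_mem_zpowers h
  · rw [← order_of_conj (cls_y.1 _ x.2 h), ord_y]

/-! ### classes -/

theorem b11 : Blk L 11 [242, 31944] := blk2 ⟨ord_y, cy_le⟩ ⟨ord_t, ct_le⟩ (pow_one t11 ▸ nc_ty 1)

theorem b22 : Blk L 22 [22, 264] := by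
  have e1 : ev R [225, 219] ^ 12 = ev R [219] := Eqv.pow eR (by decide +kernel)
  have e2 : ev R [7, 297] ^ 12 = t11 := Eqv.pow eR (by decide +kernel)
  refine blk2 ⟨orderOf_ordW eR nR (w := [225, 219]) (by decide +kernel), ?_⟩ (cb_of eR nR (k := 11) (by decide +kernel) cs_le
    ((card_le_of_le (inf_le_inf_left _ (e2 ▸ cent_pow_le _ 12))).trans cBt)).1
    (nc_of_pow e1 e2 fun h => nc_ty 1 (by rw [pow_one]; exact y0_y.symm.trans h))
  have h1 := card_dvd_of_le (e1 ▸ cent_pow_le (ev R [225, 219]) 12)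
  have h2 := card_dvd_of_le ((Eqv.pow eR (a := [225, 219]) (k := 11) (b := [225]) (by decide +kernel) ▸
    cent_pow_le _ 11).trans cu_le)
  rw [card_cent_of_conj y0_y, cls_y.2] at h1
  rw [card_H] at h2
  exact Nat.le_of_dvd (by decide) (Nat.dvd_gcd h1 h2)

theorem b44 : Blk L 44 [44] := by
  have e : ev R [309, 297] ^ 12 = t11 := Eqv.pow eR (by decide +kernel)
  have h : 6 * Nat.card ↥(B ⊓ centralizer {t11} ⊓ centralizer {ev R [309, 297]}) ≤ _ :=
    Eqv.cj eR nR (l := [([], [309, 297]), ([43], [311, 297]), ([44], [312, 309, 297]), ([311], [310, 297]), ([309, 43], [312, 297]), ([309, 44], [311, 309, 297])]) (by decide +kernel) fun q hq =>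
      le_inf (clo_B (T := [[43], [309], [311]]) (by decide +kernel)) (Eqv.com1 eR (by decide +kernel))
        (ev_mem_clo_of_wordIn (by revert q; decide +kernel))
  rw [inf_assoc, inf_eq_right.2 (e ▸ cent_pow_le _ 12 : centralizer {ev R [309, 297]} ≤ centralizer {t11})] at h
  have := cBt
  exact blk1 (cb_of eR nR (w := [309, 297]) (k := 22) (by decide +kernel) cs_le (by omega)).1

theorem blk_rat {p e g : ℕ} (hp : p.Prime) (h : p ∈ [5, 7, 23, 29, 31, 37, 43]) {x : L} (hx : orderOf x = p)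
    (hc : Nat.card (centralizer {x}) = p) (k : ∀ d ∈ (p - 1).divisors, 86775571046077562880 % (d * p) = 0 →
      86775571046077562880 / (d * p) % p = 1 → d = e) (h1 : ¬ p ∣ g) (h2 : ¬ p ∣ g * g) (h3 : g ^ e % p ≠ 1)
    (h4 : (g * g) ^ e % p ≠ 1) : Blk L p [p, p, p] := by
  have c := CB.pow hp ⟨hx, hc.le⟩ h1
  refine blk3 ⟨hx, hc.le⟩ c (CB.pow hp ⟨hx, hc.le⟩ h2) (fun n => h3 (((rat_L hp h hx hc k).2 g h1).1 n))
    (fun n => h4 (((rat_L hp h hx hc k).2 _ h2).1 n)) fun n => h3 (((rat_L hp h c.1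
      (by rw [cent_pow_eq hp hx h1, hc]) k).2 g h1).1 (pow_mul x g g ▸ n))

theorem classes : Nat.card (ConjClasses L) = 62 :=
  card_classes_blk [(1, [86775571046077562880]), (2, [21799895040, 1816657920]), (3, [2661120]), (4, [98304, 5406720, 43008]), (5, [6720]), (6, [2304, 2304, 2661120]), (7, [840, 840]), (8, [1280, 768, 512]), (10, [960, 80]), (11, [242, 31944]),
    (12, [192, 192, 48]), (14, [84, 84, 56, 56]), (15, [30]), (16, [32]), (20, [160, 160]), (21, [42, 42]), (22, [22, 264]), (23, [23]), (24, [48, 48]), (28, [28, 28]), (29, [29]), (30, [30]), (31, [31, 31, 31]),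
    (33, [66, 66]), (35, [35, 35]), (37, [37, 37, 37]), (40, [40, 40]), (42, [42, 42]), (43, [43, 43, 43]), (44, [44]), (66, [66, 66])] (by decide) (by
      simp only [List.forall_mem_cons, List.not_mem_nil, false_imp_iff, implies_true, and_true]
      exact ⟨blk1 ⟨orderOf_one, card_L ▸ card_le_card_group _⟩, b2, b3, b4, b5, b6, b7, b8, b10, b11, b12, b14, b15, b16,
        b20, b21, b22, blk1 ⟨pr23.1, card_c23.le⟩, b24, b28, blk1 ⟨ord29, card_c29.le⟩, b30,
        blk_rat (e := 10) (g := 3) (by norm_num) (by decide) ord31 card_c31 (by decide +kernel) (by decide) (by decide)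
          (by decide) (by decide), b33, b35,
        blk_rat (e := 12) (g := 2) (by norm_num) (by decide) ord37 card_c37 (by decide +kernel) (by decide) (by decide)
          (by decide) (by decide), b40, b42,
        blk_rat (e := 14) (g := 3) (by norm_num) (by decide) ord43 card_c43 (by decide +kernel) (by decide) (by decide)
          (by decide) (by decide), b44, b66⟩) card_L (by decide +kernel)

theorem syl_big {G : Type*} [Group G] [Finite G] (f : G ≃* L) {p e m : ℕ} [hp : Fact p.Prime]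
    (h : p ∈ [5, 7, 23, 29, 31, 37, 43]) {x : L} (hx : orderOf x = p) (hc : Nat.card (centralizer {x}) = p)
    (k : ∀ d ∈ (p - 1).divisors, 86775571046077562880 % (d * p) = 0 → 86775571046077562880 / (d * p) % p = 1 → d = e)
    (h1 : 86775571046077562880 = p ^ 1 * m) (h2 : ¬ p ∣ m) (U : Sylow p G) :
    centralizer ((U : Subgroup G) : Set G) = U ∧ Nat.card (normalizer ((U : Subgroup G) : Set G)) = p * e := by
  obtain ⟨f, hf⟩ := sylow_eq_comap (S₀ := zpowers x) (by rw [Nat.card_zpowers, hx, pow_one]) (card_L.trans h1) h2 f U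
  rw [hf, cent_comap, norm_comap, card_comap_equiv, cent_zpowers, (rat_L hp.out h hx hc k).1, mul_comm,
    ← Comp.eq_of_le_of_card_le (zpowers_le.2 (mem_centralizer_singleton_iff.2 rfl) : zpowers x ≤ centralizer {x})
      (by rw [hc, Nat.card_zpowers, hx])]
  exact ⟨rfl, rfl⟩

end CF.J4F
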