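import Cfsg.Agent.J4F.Mx1
import Cfsg.Agent.J4F.N
import Cfsg.Agent.J4F.U

/-! A sieve for the orders of subgroups of the fourth Janko group; two maximal subgroups. -/

set_option autoImplicit false
set_option maxRecDepth 1000000
set_option maxHeartbeats 400000
set_option Elab.async false

namespace CF.J4F

open CF.Comp CF.Bt CF.Dce CF.Dce.J4 MulAction Subgroup

instance mxF5 : Fact (Nat.Prime 5) := ⟨by norm_num⟩
instance mxF7 : Fact (Nat.Prime 7) := ⟨by norm_num⟩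
instance mxF11 : Fact (Nat.Prime 11) := ⟨by norm_num⟩
instance mxF23 : Fact (Nat.Prime 23) := ⟨by norm_num⟩
instance mxF29 : Fact (Nat.Prime 29) := ⟨by norm_num⟩
instance mxF31 : Fact (Nat.Prime 31) := ⟨by norm_num⟩
instance mxF37 : Fact (Nat.Prime 37) := ⟨by norm_num⟩
instance mxF43 : Fact (Nat.Prime 43) := ⟨by norm_num⟩

theorem sd5 : SD L 5 1 5376 := sd_one (not_sq_L (by decide)) ord5 rat5
theorem sd7 : SD L 7 1 360 := sd_one (not_sq_L (by decide)) ord7 rat7.1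
theorem sd23 : SD L 23 1 22 := sd_one (not_sq_L (by decide)) pr23.1
  (rat_L (e := 22) Fact.out (by decide) pr23.1 card_c23 (by decide +kernel)).1
theorem sd29 : SD L 29 1 28 := sd_one (not_sq_L (by decide)) ord29
  (rat_L (e := 28) Fact.out (by decide) ord29 card_c29 (by decide +kernel)).1
theorem sd31 : SD L 31 1 10 := sd_one (not_sq_L (by decide)) ord31
  (rat_L (e := 10) Fact.out (by decide) ord31 card_c31 (by decide +kernel)).1
theorem sd37 : SD L 37 1 12 := sd_one (not_sq_L (by decide)) ord37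
  (rat_L (e := 12) Fact.out (by decide) ord37 card_c37 (by decide +kernel)).1
theorem sd43 : SD L 43 1 14 := sd_one (not_sq_L (by decide)) ord43
  (rat_L (e := 14) Fact.out (by decide) ord43 card_c43 (by decide +kernel)).1

theorem t_U : t11 ∈ U11 := ev_mem_clo R (by decide)

theorem mem_t {x : L} (h : x ∈ U11) (hx : IsConj t11 x) : x ∈ zpowers t11 := not_not.1 fun e => nc_ty 1 (by
  rw [pow_one]; exact (cls_y.1 _ h e).trans hx.symm)

theorem norm_t : normalizer (zpowers t11 : Set L) = normalizer (U11 : Set L) :=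
  (Comp.eq_of_le_of_card_le (fun g hg => by
    obtain ⟨k, hk⟩ := mem_powers_iff_mem_zpowers.2 (mem_t ((mem_normalizer_iff.1 hg t11).1 t_U) (isConj_iff.2 ⟨g, rfl⟩))
    exact mem_norm_zpowers hk.symm) (card_NU ▸ rat11.1.trans_le (Nat.mul_le_mul_left 10 ct_le))).symm

theorem ct_N : centralizer {t11} ≤ normalizer (U11 : Set L) := norm_t ▸ cent_zpowers t11 ▸ centralizer_le_normalizer _

theorem exists_U : ∃ U : Sylow 11 L, (U : Subgroup L) = U11 :=
  ⟨Sylow.ofCard U11 (by rw [factorization_eq Fact.out (card_L.trans (show _ = 11 ^ 3 * 65195770883604480 by norm_num))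
    (by norm_num), card_U.1]), rfl⟩

theorem mem_U {x g : L} (h : x ∈ U11) (h1 : x ≠ 1) (hg : orderOf g = 11) (hc : g * x = x * g) : g ∈ U11 := by
  obtain ⟨U, hU⟩ := exists_U
  have hp : IsPGroup 11 (zpowers g) := IsPGroup.of_card (n := 1) (by rw [Nat.card_zpowers, hg, pow_one])
  by_cases e : x ∈ zpowers t11
  · obtain ⟨k, rfl⟩ := mem_powers_iff_mem_zpowers.2 e
    have := ct_N ((cent_pow_eq Fact.out ord_t fun e => h1 (orderOf_dvd_iff_pow_eq_one.1 (ord_t ▸ e))).le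
      (mem_centralizer_singleton_iff.2 hc))
    rw [← hU] at this ⊢
    exact ((hp.inf_normalizer_sylow U).le ⟨mem_zpowers g, this⟩).2
  · have a1 := (card_cent_of_conj (cls_y.1 x h e)).symm.trans cls_y.2
    have a2 : zpowers t11 ≤ U11 ⊓ centralizer {x} := zpowers_le.2
      ⟨t_U, mem_centralizer_singleton_iff.2 (mem_centralizer_singleton_iff.1 (U_t h)).symm⟩
    have a3 := two_mul_card_le a2 fun k => e (k ⟨h, mem_centralizer_singleton_iff.2 rfl⟩)
    have a4 := card_dvd_of_le (inf_le_left : U11 ⊓ centralizer {x} ≤ _)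
    have a5 := (U11.subgroupOf (centralizer {x})).card_mul_index
    rw [Nat.card_zpowers, ord_t] at a3
    rw [← inf_subgroupOf_right, card_sub_of inf_le_right, inf_subgroupOf_right, a1] at a5
    rw [card_U.1] at a4
    have a6 := (by decide +kernel : ∀ c ∈ Nat.divisors (11 ^ 3), 2 * 11 ≤ c → c ∣ 242 → c = 121) _
      (Nat.mem_divisors.2 ⟨a4, by decide⟩) a3 ⟨_, a5.symm⟩
    have a7 : g ^ 2 ∈ U11 := sq_mem_of_index_two (H := U11.subgroupOf (centralizer {x})) (by rw [a6] at a5; omega)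
      ⟨g, mem_centralizer_singleton_iff.2 hc⟩
    have := pow_mem a7 6
    rwa [← pow_mul, ← pow_mod_ord hg, pow_one] at this

theorem sd11 : SD L 11 3 240 := by
  obtain ⟨U, hU⟩ := exists_U
  have k : ∀ g : L, ∀ x ∈ U, x ∈ g • U → x ≠ 1 → g • U = U := fun g x h1 ⟨y, h2, e⟩ h3 => by
    replace e : g * y * g⁻¹ = x := e
    have a1 : IsConj t11 (g * t11 * g⁻¹) := isConj_iff.2 ⟨g, rfl⟩
    obtain ⟨i, hi⟩ := mem_powers_iff_mem_zpowers.2 (mem_t (mem_U (hU ▸ h1) h3 ((order_of_conj a1).symm.trans ord_t) (by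
      rw [← e, conj_mul, conj_mul, mem_centralizer_singleton_iff.1 (U_t (hU ▸ h2))])) a1)
    have := mem_norm_zpowers hi.symm
    rw [norm_t, ← hU] at this
    exact Sylow.smul_eq_iff_mem_normalizer.2 this
  refine sd_of (fun W W' x h1 h2 h3 => ?_) U (hU ▸ card_U.1) (hU ▸ card_NU)
  obtain ⟨a, rfl⟩ := exists_smul_eq L U W
  obtain ⟨b, rfl⟩ := exists_smul_eq L U W'
  obtain ⟨y, h4, rfl⟩ := h1
  rw [eq_comm, ← inv_smul_eq_iff, ← mul_smul]
  refine k _ y h4 ?_ fun e => h3 (by simp [e])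
  obtain ⟨z, h5, e⟩ := h2
  exact ⟨z, h5, by
    replace e : b * z * b⁻¹ = a * y * a⁻¹ := e
    show a⁻¹ * b * z * (a⁻¹ * b)⁻¹ = y
    rw [mul_assoc a⁻¹, mul_inv_rev, ← mul_assoc, mul_assoc a⁻¹, e]; group⟩

/-- the divisors of `240` -/
noncomputable def d240 : List Nat := [1, 2, 3, 4, 5, 6, 8, 10, 12, 15, 16, 20, 24, 30, 40, 48, 60, 80, 120, 240]

/-- the divisors of `5376` -/
noncomputable def d5376 : List Nat := [1, 2, 3, 4, 6, 7, 8, 12, 14, 16, 21, 24, 28, 32, 42, 48, 56, 64, 84, 96, 112, 128,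
  168, 192, 224, 256, 336, 384, 448, 672, 768, 896, 1344, 1792, 2688, 5376]

/-- the sieve -/
noncomputable def sv (m : Nat) : Bool := lall (svq m) [(43, [43], [1, 2, 7, 14]), (37, [37], [1, 2, 3, 4, 6, 12]),
  (31, [31], [1, 2, 5, 10]), (29, [29], [1, 2, 4, 7, 14, 28]), (23, [23], [1, 2, 11, 22]), (11, [11, 121, 1331], d240),
  (7, [7], [1, 2, 3, 4, 5, 6, 8, 9, 10, 12, 15, 18, 20, 24, 30, 36, 40, 45, 60, 72, 90, 120, 180, 360]), (5, [5], d5376)]

theorem sv_L (M : Subgroup L) : sv (Nat.card M) = true := by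
  simp only [sv, lall_iff, List.forall_mem_cons, List.not_mem_nil, false_imp_iff, implies_true, and_true]
  refine ⟨sd43.svq ?_ ?_ ?_ M, sd37.svq ?_ ?_ ?_ M, sd31.svq ?_ ?_ ?_ M, sd29.svq ?_ ?_ ?_ M, sd23.svq ?_ ?_ ?_ M,
    sd11.svq ?_ ?_ ?_ M, sd7.svq ?_ ?_ ?_ M, sd5.svq ?_ ?_ ?_ M⟩ <;> decide +kernel

/-- the prime powers with the given exponents -/
noncomputable def pe (l : List Nat) : List (Nat × Nat) := List.zip [2, 3, 5, 7, 11, 23, 29, 31, 37, 43] l

/-- only the trivial orders pass the sieve -/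
noncomputable def finOK (P : Nat → Bool) (h : Nat) (l : List Nat) : Bool :=
  Bool.rec false (allD (fun m => Bool.rec true (Bool.rec true (lmem [h, 43387785523038781440, 86775571046077562880] m)
    (sv m)) (P m)) (pe l) h) (Nat.beq 86775571046077562880 (h * ((pe l).map fun q => q.1 ^ q.2).prod))

theorem prL : ∀ p ∈ [2, 3, 5, 7, 11, 23, 29, 31, 37, 43], p.Prime := by
  simp only [List.forall_mem_cons]; norm_num

theorem fin_L {H M : Subgroup L} (hle : H ≤ M) (hM : M ≠ ⊤) {h : ℕ} (hH : Nat.card H = h) (P : ℕ → Bool) (l : List ℕ)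
    (hc : finOK P h l = true) (hP : P (Nat.card M) = true) : M ≤ H := by
  obtain ⟨c1, c2⟩ := brec_and.1 hc
  obtain ⟨d, hd⟩ := hH ▸ card_dvd_of_le hle
  have h1 := M.card_mul_index
  have h2 : d ∣ ((pe l).map fun q => q.1 ^ q.2).prod := Nat.dvd_of_mul_dvd_mul_left (k := h) (hH ▸ Nat.card_pos) (by
    rw [← hd, ← beq_iff.1 c1, ← card_L]; exact ⟨_, h1.symm⟩)
  have h3 := allD_spec (fun q hq => prL _ (List.of_mem_zip hq).1) c2 h2
  rw [← hd] at h3
  have h4 := lmem_iff.1 (brec_imp.1 (brec_imp.1 h3 hP) (sv_L M))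
  simp only [List.mem_cons, List.not_mem_nil, or_false] at h4
  rcases h4 with e | e | e
  · exact (Comp.eq_of_le_of_card_le hle (e.trans hH.symm).le).ge
  · rw [e, card_L] at h1
    have := simple_L
    rcases (normal_of_index_eq_two (H := M) (by omega)).eq_bot_or_eq_top with a | a
    · rw [a, card_bot] at e; omega
    · exact absurd a hM
  · exact absurd (eq_top_of_card_eq M (e.trans card_L.symm)) hM

theorem coat {H : Subgroup L} {h : ℕ} (hH : Nat.card H = h) (h1 : h ≠ 86775571046077562880)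
    (k : ∀ M, H ≤ M → M ≠ ⊤ → M ≤ H) : IsCoatom H :=
  ⟨fun e => h1 (by rw [← hH, e, card_top, card_L]), fun M hM => not_not.1 fun e => hM.not_ge (k M hM.le e)⟩

theorem cz {x : L} {p : ℕ} (h : orderOf x = p) : Nat.card (zpowers x) = p ^ 1 := by rw [Nat.card_zpowers, h, pow_one]

theorem conj_Z3 {g : L} (hg : g ∈ normalizer (L15 : Set L)) : g * s * g⁻¹ ∈ (Z3 : Set L) \ {1} := by
  have hs := Z3_eq.ge s_Z3
  refine ⟨Z3_eq.le ⟨(mem_normalizer_iff.1 hg _).1 hs.1, fun y hy => ?_⟩, by simpa using s_ne⟩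
  have := hs.2 _ ((mem_normalizer_iff''.1 hg y).1 hy)
  calc y * (g * s * g⁻¹) = g * (g⁻¹ * y * g * s) * g⁻¹ := by group
    _ = _ := by rw [this]; group

theorem max_B : IsCoatom B := coat card_B (by decide) fun M h hM => by
  have h5B : zpowers h5 ≤ B := zpowers_le.2 (clo_B (T := [[285]]) (by decide +kernel) (ev_mem_clo R (by decide)))
  obtain ⟨e, a1, a2, a3⟩ := sd5.cg_le (cz ord5) one_ne_zero (h5B.trans h)
  obtain ⟨e', b1, b2, b3⟩ := sd5.cg_le (cz ord5) one_ne_zero h5B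
  have c1 := card_dvd_of_le (inf_le_inf_right (normalizer (zpowers h5 : Set L)) h)
  have c2 := card_le_conj (Set.toFinite _) fun g hg => conj_Z3 (norm5_le hg)
  rw [Set.ncard_sdiff_singleton_of_mem (one_mem Z3), ← Nat.card_coe_set_eq, SetLike.coe_sort_coe, card_Z3, rat5,
    cent_s.1, inf_comm, b2] at c2
  rw [a2, b2] at c1
  rw [card_B] at b3
  have k := (by decide +kernel : ∀ e ∈ Nat.divisors 5376, e ∈ d5376)
  have c3 := (by decide +kernel : ∀ e ∈ d5376, ∀ e' ∈ d5376, cg 21799895040 (5 ^ 1) e' = true →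
    4 * 6720 ≤ (8 - 1) * (5 ^ 1 * e') → 5 ^ 1 * e' ∣ 5 ^ 1 * e → e ∈ [768, 2688, 5376]) e
    (k _ (Nat.mem_divisors.2 ⟨a1, by decide⟩)) e' (k _ (Nat.mem_divisors.2 ⟨b1, by decide⟩)) b3 c2 c1
  obtain ⟨i, d1, f, d2, d3, d4⟩ := sd11.cg_mem card_U.1 (M := M) fun e =>
    absurd (ord_t.symm.trans (orderOf_eq_one_iff.2 (e.le ⟨h t_B, t_U⟩))) (by decide)
  have d5 := card_dvd_of_le (zpowers_le.2 ⟨h ω_B, K48_le (Rω ▸ ev_mem_clo R (by decide))⟩ :
    zpowers ω ≤ M ⊓ normalizer (U11 : Set L))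
  rw [d3, Nat.card_zpowers, ord_ω] at d5
  have d6 := (by decide +kernel : ∀ i ∈ List.range' 1 3, ∀ f ∈ Nat.divisors 240, 3 ∣ 11 ^ i * f →
    11 ^ i ∈ [11, 121, 1331] ∧ f ∈ [3, 6, 12, 15, 24, 30, 48, 60, 120, 240]) i d1 f
      (Nat.mem_divisors.2 ⟨d2, by decide⟩) d5
  exact fin_L h hM card_B (fun m => Bool.rec false (lany (fun Q => lany (cg m Q) [3, 6, 12, 15, 24, 30, 48, 60, 120, 240])
    [11, 121, 1331]) (lany (cg m (5 ^ 1)) [768, 2688, 5376])) [0, 0, 0, 0, 2, 1, 1, 1, 1, 1] (by decide +kernel)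
      (brec_and.2 ⟨lany_iff.2 ⟨e, c3, a3⟩, lany_iff.2 ⟨_, d6.1, lany_iff.2 ⟨f, d6.2, d4⟩⟩⟩)

theorem card_NL' : Nat.card (normalizer (L15 : Set L)) = 660602880 := by
  obtain ⟨h0, h1, ψ, h2, h3⟩ := N_spec
  rw [← h0, card_ker_mul ψ h2, h3, card_sub_of (h0 ▸ le_normalizer), h1, Nat.card_prod, card_S5, card_SL3]
  rfl

theorem max_NL : IsCoatom (normalizer (L15 : Set L)) := coat card_NL' (by decide) fun M h hM =>
  fin_L h hM card_NL' (fun m => Bool.rec false (cg m (7 ^ 1) 360) (cg m (5 ^ 1) 5376)) [0, 1, 0, 0, 3, 1, 1, 1, 1, 1]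
    (by decide +kernel) (brec_and.2 ⟨sd5.cg_top (cz ord5) one_ne_zero (norm5_le.trans h),
      sd7.cg_top (cz ord7) one_ne_zero (norm7_le.trans h)⟩)

/-- all primes of one of the lists divide `m` -/
noncomputable def bigB (big : List (List Nat)) (m : Nat) : Bool :=
  lany (lall fun p => Nat.beq (Nat.mod m p) (nat_lit 0)) big

theorem coat_big {p k E : ℕ} [Fact p.Prime] (sd : SD L p k E) (hk : k ≠ 0) {S : Subgroup L} (hS : Nat.card S = p ^ k)
    (h1 : p ^ k * E ≠ 86775571046077562880) {big : List (List ℕ)} {l : List ℕ}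
    (hc : finOK (fun m => Bool.rec false (bigB big m) (cg m (p ^ k) E)) (p ^ k * E) l = true)
    (h : ∀ M, normalizer (S : Set L) ≤ M → M ≠ ⊤ → cg (Nat.card M) (p ^ k) E = true →
      (∀ l ∈ big, ¬ ∀ p ∈ l, p ∣ Nat.card M) → M ≤ normalizer (S : Set L)) : IsCoatom (normalizer (S : Set L)) :=
  coat (sd.norm hS) h1 fun M h2 h3 => by
    have h4 := sd.cg_top hS hk h2
    by_cases e : ∀ l ∈ big, ¬ ∀ p ∈ l, p ∣ Nat.card M
    · exact h M h2 h3 h4 e
    · push Not at e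
      obtain ⟨l, a1, a2⟩ := e
      exact fin_L h2 h3 (sd.norm hS) _ _ hc (brec_and.2 ⟨h4, lany_iff.2 ⟨l, a1, lall_iff.2 fun q hq =>
        beq_iff.2 (Nat.mod_eq_zero_of_dvd (a2 q hq))⟩⟩)

theorem max_q {p E o : ℕ} [Fact p.Prime] (sd : SD L p 1 E) {x y : L} (hx : orderOf x = p) (hy : orderOf y = 7 ^ 1 * o)
    (h1 : y ∈ normalizer (zpowers x : Set L)) (h2 : x7 ∈ zpowers y) (hg : Nat.gcd (p ^ 1 * E) (3 * 840) = 7 ^ 1 * o)
    (h0 : p ^ 1 * E ≠ 86775571046077562880) {big : List (List ℕ)} (l : List ℕ)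
    (two : ∀ K, normalizer (zpowers x : Set L) ≤ K → (∀ l ∈ big, ¬ ∀ p ∈ l, p ∣ Nat.card K) →
      K ⊓ normalizer (zpowers x7 : Set L) ≤ normalizer (zpowers x : Set L))
    (c1 : finOK (fun m => Bool.rec false (bigB big m) (cg m (p ^ 1) E)) (p ^ 1 * E) l = true)
    (c2 : finOK (fun m => lall (fun b => b) [cg m (p ^ 1) E, cg m (7 ^ 1) o, Nat.ble 1 (m % 11), Nat.ble 1 (m % 23),
      Nat.ble 1 (m % 37)]) (p ^ 1 * E) l = true) : IsCoatom (normalizer (zpowers x : Set L)) :=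
  coat_big sd one_ne_zero (cz hx) h0 c1 fun M a1 a2 a3 a4 => by
    have b1 : zpowers y ≤ centralizer (zpowers x7 : Set L) := by
      obtain ⟨i, hi⟩ := h2
      exact cent_zpowers x7 ▸ zpowers_le.2 (mem_centralizer_singleton_iff.2 (hi ▸ (Commute.self_zpow y i).eq))
    have b2 : zpowers y ≤ M ⊓ normalizer (zpowers x7 : Set L) :=
      le_inf (zpowers_le.2 (a1 h1)) (b1.trans (centralizer_le_normalizer _))
    have b3 := Nat.dvd_gcd (card_dvd_of_le (two M a1 a4)) (card_dvd_of_le (inf_le_right : M ⊓ _ ≤ _))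
    rw [sd.norm (cz hx), rat7.1, hg, ← hy, ← Nat.card_zpowers] at b3
    have b4 := Comp.eq_of_le_of_card_le b2 (Nat.le_of_dvd Nat.card_pos b3)
    have b5 : zpowers x7 ≤ M := zpowers_le.2 (b2 h2).1
    obtain ⟨U, hU⟩ := sd7.syl (cz ord7)
    have k : ∀ {q j F : ℕ} [Fact q.Prime], SD L q j F → q ≠ 7 → ¬ 7 ^ 1 ∣ q ^ j * F → Nat.ble 1 (Nat.card M % q) = true :=
      fun sd e1 e2 => ble_iff.2 (Nat.pos_of_ne_zero fun e => e2 (cz ord7 ▸ hU ▸ sd.burn e1 U (hU ▸ b5)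
        (hU.symm ▸ b4 ▸ b1) (Nat.dvd_of_mod_eq_zero e)))
    refine fin_L a1 a2 (sd.norm (cz hx)) _ _ c2 (lall_iff.2 ?_)
    simp only [List.forall_mem_cons, List.not_mem_nil, false_imp_iff, implies_true, and_true]
    exact ⟨a3, sd7.cg_eq (cz ord7) one_ne_zero b5 (by rw [← b4, Nat.card_zpowers, hy]), k sd11 (by decide) (by decide),
      k sd23 (by decide) (by decide), k sd37 (by decide) (by decide)⟩

end CF.J4F
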