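import Cfsg.Agent.J4F.MxD

/-! Checks of conjugates. -/

set_option autoImplicit false
set_option maxRecDepth 1000000
set_option maxHeartbeats 0
set_option Elab.async false

namespace CF.J4F

open CF.Comp CF.Bt CF.Dce CF.Dce.J4

theorem kq29l0 : lall (bkOK mL eL (full 12544) MxE q29cs q29as q29ds q29hs [341] q29bi) q29l0 = true := by decide +kernel

theorem kq29l : lall (bkOK mL eL (full 12544) MxE q29cs q29as q29ds q29hs [341] q29bi) q29l = true := kq29l0

theorem kq29m0 : lall (bkOK mL eL (full 12544) MxE q29ds q29bs [] q29hs [337] q29bi) q29m0 = true := by decide +kernel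

theorem kq29m1 : lall (bkOK mL eL (full 12544) MxE q29ds q29bs [] q29hs [337] q29bi) q29m1 = true := by decide +kernel

theorem kq29m : lall (bkOK mL eL (full 12544) MxE q29ds q29bs [] q29hs [337] q29bi) q29m = true := lall_app kq29m0 (kq29m1)

theorem kq29 : twoOK q29cs q29as q29ds q29bs q29hs [341] [337] q29l q29m 2520 1 = true := by decide +kernel

theorem kq43l0 : lall (bkOK mL eL (full 12544) MxE q43cs q43as q43ds q43hs [353] q43bi) q43l0 = true := by decide +kernel

theorem kq43l : lall (bkOK mL eL (full 12544) MxE q43cs q43as q43ds q43hs [353] q43bi) q43l = true := kq43l0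

theorem kq43m0 : lall (bkOK mL eL (full 12544) MxE q43ds q43bs [] q43hs [349] q43bi) q43m0 = true := by decide +kernel

theorem kq43m : lall (bkOK mL eL (full 12544) MxE q43ds q43bs [] q43hs [349] q43bi) q43m = true := kq43m0

theorem kq43 : twoOK q43cs q43as q43ds q43bs q43hs [353] [349] q43l q43m 2520 1 = true := by decide +kernel

theorem kq11l0 : lall (bkOK mL eL (full 12544) MxE q11cs q11as q11ds q11hs [43] q11bi) q11l0 = true := by decide +kernel

theorem kq11l : lall (bkOK mL eL (full 12544) MxE q11cs q11as q11ds q11hs [43] q11bi) q11l = true := kq11l0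

theorem kq11m0 : lall (bkOK mL eL (full 12544) MxE q11ds q11bs [] q11hs [297] q11bi) q11m0 = true := by decide +kernel

theorem kq11m : lall (bkOK mL eL (full 12544) MxE q11ds q11bs [] q11hs [297] q11bi) q11m = true := kq11m0

theorem kq11 : twoOK q11cs q11as q11ds q11bs q11hs [43] [297] q11l q11m 26880 6 = true := by decide +kernel

theorem kq37m0 : lall (bkOK mL eL (full 12544) MxE q37ds q37bs [] q37hs [363] q37bi) q37m0 = true := by decide +kernel

theorem kq37m1 : lall (bkOK mL eL (full 12544) MxE q37ds q37bs [] q37hs [363] q37bi) q37m1 = true := by decide +kernel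

theorem kq37m : lall (bkOK mL eL (full 12544) MxE q37ds q37bs [] q37hs [363] q37bi) q37m = true := lall_app kq37m0 (kq37m1)

theorem kq37 : twoOK q37cs q37as q37ds q37bs q37hs [367] [363] q37l q37m 172032 1 = true := by decide +kernel


end CF.J4F
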