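import Cfsg.Agent.J4F.MxD

/-! Checks of conjugates. -/

set_option autoImplicit false
set_option maxRecDepth 1000000
set_option maxHeartbeats 0
set_option Elab.async false

namespace CF.J4F

open CF.Comp CF.Bt CF.Dce CF.Dce.J4

theorem kq37l0 : lall (bkOK mL eL (full 12544) MxE q37cs q37as q37ds q37hs [367] q37bi) q37l0 = true := by decide +kernel

theorem kq37l1 : lall (bkOK mL eL (full 12544) MxE q37cs q37as q37ds q37hs [367] q37bi) q37l1 = true := by decide +kernel

theorem kq37l2 : lall (bkOK mL eL (full 12544) MxE q37cs q37as q37ds q37hs [367] q37bi) q37l2 = true := by decide +kernel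

theorem kq37l3 : lall (bkOK mL eL (full 12544) MxE q37cs q37as q37ds q37hs [367] q37bi) q37l3 = true := by decide +kernel

theorem kq37l4 : lall (bkOK mL eL (full 12544) MxE q37cs q37as q37ds q37hs [367] q37bi) q37l4 = true := by decide +kernel

theorem kq37l5 : lall (bkOK mL eL (full 12544) MxE q37cs q37as q37ds q37hs [367] q37bi) q37l5 = true := by decide +kernel

theorem kq37l : lall (bkOK mL eL (full 12544) MxE q37cs q37as q37ds q37hs [367] q37bi) q37l = true := lall_app kq37l0 (lall_app kq37l1 (lall_app kq37l2 (lall_app kq37l3 (lall_app kq37l4 (kq37l5)))))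


end CF.J4F
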