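import Cfsg.Agent.J4F.MxE
import Cfsg.Agent.Bt.Cent

/-! Check of a search tree. -/

set_option autoImplicit false
set_option maxRecDepth 1000000
set_option maxHeartbeats 0
set_option Elab.async false

namespace CF.J4F

open CF.Comp CF.Bt CF.Dce CF.Dce.J4

theorem kHA : stdOK HyN 1518 11 HC LA10 LA10 [] [] HAbF HAbK HAb 1024 = true := by decide +kernel


end CF.J4F
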