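import Cfsg.Agent.J4F.Mx2
import Cfsg.Agent.J4F.Mx3
import Cfsg.Agent.J4F.Mx4
import Cfsg.Agent.J4F.Mx5

/-! Maximal local subgroups of the fourth Janko group. -/

set_option autoImplicit false
set_option maxRecDepth 1000000
set_option maxHeartbeats 400000
set_option Elab.async false

namespace CF.J4F

open CF.Comp CF.Bt CF.Dce CF.Dce.J4 MulAction Subgroup Cfsg

/-- the letters -/
noncomputable abbrev Mx : ℕ → L := slp R MxW 166

theorem Mxok_0 : allFrom (layAt mL eL MxE MxW 166) 0 20 = true := by decide +kernel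

theorem Mxok_20 : allFrom (layAt mL eL MxE MxW 166) 20 27 = true := by decide +kernel

theorem Mxok_47 : allFrom (layAt mL eL MxE MxW 166) 47 2 = true := by decide +kernel

theorem Mxok : ∀ j < 49, layAt mL eL MxE MxW 166 j = true := by
  have h : ∀ j < 0, layAt mL eL MxE MxW 166 j = true := by simp
  have h := forall_lt_add h (allFrom_iff.1 Mxok_0)
  have h := forall_lt_add h (allFrom_iff.1 Mxok_20)
  have h := forall_lt_add h (allFrom_iff.1 Mxok_47)
  exact h

theorem Mxen : En 112 ι Mx MxE :=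
  Ren.layer MP (by decide +kernel) (by decide +kernel) rfl rfl Mxok

theorem Mxtb : Tbl 2 1 112 mL eL (full 12544) ι Mx MxE := Mxen.tbl MP ι_inj

theorem Mxlow {w : List ℕ} (h : lowW 166 w = true) : ev Mx w = ev R w := ev_slp_low _ _ h

/-- equality of words -/
noncomputable abbrev eqX : List ℕ → List ℕ → Bool := eqM mL eL (full 12544) MxE

/-- inequality of words -/
noncomputable abbrev neX : List ℕ → List ℕ → Bool := neM mL eL (full 12544) MxE

theorem eX : Eqv Mx eqX := Mxtb.eqv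

theorem nX : Nev Mx neX := Mxtb.nev

theorem prB {big : List (List ℕ)} (h : lall (lall (lmem [2, 3, 5, 7, 11, 23, 29, 31, 37, 43])) big = true) :
    ∀ l ∈ big, ∀ p ∈ l, p.Prime := fun l h1 p h2 => prL p (lmem_iff.1 (lall_iff.1 (lall_iff.1 h l h1) p h2))

theorem cent_N (x : L) : centralizer {x} ≤ normalizer (zpowers x : Set L) := cent_zpowers x ▸ centralizer_le_normalizer _

theorem X7 : ev Mx [259] = x7 := Mxlow (by decide +kernel)

theorem pow_mem_z {a b : List ℕ} (k : ℕ) (h : eqX (wpow a k) b = true) : ev Mx b ∈ zpowers (ev Mx a) :=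
  Eqv.pow eX h ▸ npow_mem_zpowers _ k

theorem max_29 : ∃ x : L, orderOf x = 29 ∧ IsCoatom (normalizer (zpowers x : Set L)) := by
  have h1 : orderOf (ev Mx [337]) = 29 := orderOf_ordW eX nX (by decide +kernel)
  have h2 : clo Mx q29hs ≤ normalizer (zpowers (ev Mx [337]) : Set L) := Eqv.nz eX (ks := [1, 11, 28]) (by decide +kernel)
  exact ⟨_, h1, max_q sd29 (y := ev Mx [339]) (o := 4) h1 (orderOf_ordW eX nX (by decide +kernel))
    (h2 (ev_mem_clo Mx (by decide +kernel))) (X7 ▸ pow_mem_z 16 (by decide +kernel)) (by decide) (by decide) [19, 3, 1, 0, 3, 1, 0, 1, 1, 1]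
    (two_bk1 MP Mxtb (prB (by decide +kernel)) kq29l kq29m kq29 (by decide +kernel)
      (X7 ▸ Eqv.nz eX (ks := [1, 2]) (by decide +kernel)) h2 rat7.1.le Nat.card_pos (cent_N _))
    (by decide +kernel) (by decide +kernel)⟩

theorem max_43 : ∃ x : L, orderOf x = 43 ∧ IsCoatom (normalizer (zpowers x : Set L)) := by
  have h1 : orderOf (ev Mx [349]) = 43 := orderOf_ordW eX nX (by decide +kernel)
  have h2 : clo Mx q43hs ≤ normalizer (zpowers (ev Mx [349]) : Set L) := Eqv.nz eX (ks := [1, 2, 42]) (by decide +kernel)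
  exact ⟨_, h1, max_q sd43 (y := ev Mx [351]) (o := 2) h1 (orderOf_ordW eX nX (by decide +kernel))
    (h2 (ev_mem_clo Mx (by decide +kernel))) (X7 ▸ pow_mem_z 6 (by decide +kernel)) (by decide) (by decide) [20, 3, 1, 0, 3, 1, 1, 1, 1, 0]
    (two_bk1 MP Mxtb (prB (by decide +kernel)) kq43l kq43m kq43 (by decide +kernel)
      (X7 ▸ Eqv.nz eX (ks := [1, 2]) (by decide +kernel)) h2 rat7.1.le Nat.card_pos (cent_N _))
    (by decide +kernel) (by decide +kernel)⟩

theorem max_37 : ∃ x : L, orderOf x = 37 ∧ IsCoatom (normalizer (zpowers x : Set L)) := by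
  have h1 : orderOf (ev Mx [363]) = 37 := orderOf_ordW eX nX (by decide +kernel)
  have h2 : clo Mx q37hs ≤ normalizer (zpowers (ev Mx [363]) : Set L) := Eqv.nz eX (ks := [1, 10, 14]) (by decide +kernel)
  have e : ev Mx [305] = ev R [305] := Mxlow (by decide +kernel)
  have h3 := card_norm2 (.inr c4C.1.1) ⊤
  rw [top_inf_eq, top_inf_eq, ← e] at h3
  refine ⟨_, h1, coat_big sd37 one_ne_zero (cz h1) (by decide) (big := q37bi) (l := [19, 2, 1, 1, 3, 1, 1, 1, 0, 1])
    (by decide +kernel) fun M a1 a2 a3 a4 => fin_L a1 a2 (sd37.norm (cz h1))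
      (fun m => Bool.rec false (Nat.ble 1 (m % 8)) (cg m (37 ^ 1) 12)) [19, 2, 1, 1, 3, 1, 1, 1, 0, 1] (by decide +kernel)
        (brec_and.2 ⟨a3, ble_iff.2 (Nat.pos_of_ne_zero fun h => ?_)⟩)⟩
  have h4 := two_bk MP Mxtb (prB (by decide +kernel)) kq37l kq37m kq37
    (C := normalizer (zpowers (ev Mx [305]) : Set L)) (Eqv.nz eX (ks := [1, 3]) (by decide +kernel))
    (le_inf (Eqv.nz eX (ks := [1, 3]) (by decide +kernel)) (Eqv.nz eX (ks := [1, 2]) (by decide +kernel))) h2
    (inf_le_inf_left _ (cent_N _)) inf_le_left (card_norm2 (.inl (orderOf_ordW eX nX (by decide +kernel))) _)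
    (by have := c4C.1.2; rw [← e] at this; omega) Nat.card_pos (cent_N _) M a1 a4
  have h5 := (pow_dvd_norm (p := 2) (k := 2) (zpowers_le.2 (zpowers_le.2 (a1 (h2 (ev_mem_clo Mx (w := [365])
    (by decide +kernel)))) (pow_mem_z (b := [305]) 3 (by decide +kernel)))) (by rw [Nat.card_zpowers, e, c4C.1.1]; rfl)
      (Nat.dvd_of_mod_eq_zero h)).trans (card_dvd_of_le h4)
  rw [sd37.norm (cz h1)] at h5
  exact absurd h5 (by decide)

theorem clo_X {ws : List (List ℕ)} (h : lall (lowW 166) ws = true) : clo Mx ws = clo R ws :=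
  le_antisymm (clo_le.2 fun w hw => Mxlow (lall_iff.1 h w hw) ▸ ev_mem_clo R hw)
    (clo_le.2 fun w hw => Mxlow (lall_iff.1 h w hw) ▸ ev_mem_clo Mx hw)

theorem max_11 : IsCoatom (normalizer (U11 : Set L)) := by
  have h1 : orderOf (ev Mx [385]) = 5 := orderOf_ordW eX nX (by decide +kernel)
  have h0 : clo Mx [[313], [307], [299], [297], [301], [43], [311], [309], [7]] ≤ normalizer (U11 : Set L) := by
    rw [clo_X (by decide +kernel)]
    refine clo_le.2 fun w hw => ?_
    rcases (by decide +kernel : ∀ w ∈ [[313], [307], [299], [297], [301], [43], [311], [309], [7]],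
      w ∈ [[313], [301], [43], [311], [309], [7]] ∨ w ∈ [[307], [299], [297]]) w hw with e | e
    exacts [K48_le (ev_mem_clo R e), le_normalizer (ev_mem_clo R e)]
  have h2 : clo Mx q11hs ≤ normalizer (U11 : Set L) := (eX.memAll
    (us := [[1], [1, 5, 5, 5], [3], [5], [7], [9], [11], [13], [15], [17]]) (by decide +kernel)).trans h0
  have h3 : clo Mx q11cs ≤ normalizer (zpowers (ev Mx [385]) : Set L) := Eqv.nz eX (ks := [1, 2]) (by decide +kernel)
  have e : ev Mx [297] = t11 := Mxlow (by decide +kernel)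
  refine coat_big sd11 (by decide) card_U.1 (by decide) (big := q11bi) (l := [17, 2, 0, 1, 0, 1, 1, 1, 1, 1])
    (by decide +kernel) fun M a1 a2 a3 a4 => fin_L a1 a2 card_NU
      (fun m => Bool.rec false (cg m (5 ^ 1) 48) (cg m (11 ^ 3) 240)) [17, 2, 0, 1, 0, 1, 1, 1, 1, 1] (by decide +kernel)
        (brec_and.2 ⟨a3, sd5.cg_eq (cz h1) one_ne_zero (zpowers_le.2 (a1 (h2 (ev_mem_clo Mx (by decide +kernel))))) ?_⟩)
  have h4 := two_bk1 MP Mxtb (prB (by decide +kernel)) kq11l kq11m kq11 (by decide +kernel) h3 h2 (sd5.norm (cz h1)).le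
    ((orderOf_ordW eX nX (w := [43, 7]) (by decide +kernel)).ge.trans ((Nat.card_zpowers _).ge.trans
      (card_le_of_le (zpowers_le.2 ⟨⟨h3 (ev_mem_clo_of_wordIn (by decide +kernel)), mem_centralizer_singleton_iff.2
        (Eqv.comm eX (by decide +kernel))⟩, mem_centralizer_singleton_iff.2 (Eqv.comm eX (by decide +kernel))⟩))))
    (e ▸ ct_N) M a1 a4
  have h5 := Nat.dvd_gcd (card_dvd_of_le h4) (card_dvd_of_le (inf_le_right : M ⊓ _ ≤ _))
  have h6 : clo Mx q11as ≤ M ⊓ normalizer (zpowers (ev Mx [385]) : Set L) :=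
    le_inf ((clo_mono (by decide +kernel)).trans (h2.trans a1)) ((clo_mono (by decide +kernel)).trans h3)
  have h7 := card_dvd_of_le ((clo_mono (by decide +kernel) : clo Mx [[301], [43], [311], [309], [7]] ≤ _).trans h6)
  have h8 := card_dvd_of_le (zpowers_le.2 (h6 (ev_mem_clo Mx (w := [385]) (by decide +kernel))))
  rw [card_NU, sd5.norm (cz h1)] at h5
  rw [clo_X (by decide +kernel), K48_iso.2] at h7
  rw [cz h1] at h8
  exact Nat.dvd_antisymm h5 (Nat.lcm_dvd h7 h8)

/-! ### the group of order `2 ^ 10` -/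

/-- the letters -/
noncomputable abbrev fHy : ℕ → L := evs Mx HyT

theorem vHy : vOK MxE 1518 HV HS HyN HyT 46 = true := by decide +kernel

theorem evHy (w : List ℕ) : ev fHy w ∈ H := ev_evs (f := Mx) HyT w ▸
  (clo_le.2 fun w hw => mem_H Mxtb (by revert w; decide +kernel) : clo Mx HyT ≤ H) (ev_subst_mem_clo _ _ _)

theorem exHy : Exact (vD vHy) HyN fHy HC H :=
  exact_of_le (reps_v Mxtb vHy) (by decide) (fun w _ => evHy w) card_H.le (by decide +kernel)

/-- the elementary abelian group -/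
noncomputable abbrev A10 : Subgroup L := clo Mx AW10

theorem A10_spec : IsElementaryAbelian 2 A10 ∧ Nat.card A10 = 2 ^ 10 ∧ centralizer (A10 : Set L) = A10 := by
  have e : clo fHy LA10 = A10 := cloS (by decide +kernel)
  have h1 : 2 ^ 10 ≤ Nat.card A10 := le_trans (by decide +kernel) (exHy.reps.chain_le (by decide) (c := HAc)
    (by decide +kernel) fun w hw => e ▸ ev_mem_clo_of_wordIn (by revert w; decide +kernel))
  have h2 : A10 ≤ centralizer (A10 : Set L) := eX.comAll (by decide +kernel)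
  have h3 : u ∈ A10 := Ru ▸ (Mxlow (w := [225]) (by decide +kernel) ▸ eX.memAll (vs := [[225]]) (us := [[13, 7, 3]])
    (by decide +kernel) (ev_mem_clo Mx List.mem_cons_self))
  have h4 : Nat.card (centralizer (A10 : Set L)) ≤ 1024 := card_le_of_std exHy (by decide) (k := 11) (by decide)
    exHy.faithful le_rfl (fun w _ => evHy w) (fun w _ => evHy w) kHA
    (fun g hg => cent_u.1 (mem_centralizer_singleton_iff.2 (mem_centralizer_iff.1 hg u h3).symm))
    (fun g hg w hw => (mem_centralizer_iff.1 hg _ (e ▸ ev_mem_clo fHy hw)).symm) (by simp)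
  exact ⟨⟨⟨⟨fun x y => Subtype.ext (mem_centralizer_iff.1 (h2 y.2) _ x.2)⟩⟩,
    eX.pow_eq_one (by decide +kernel) (by decide +kernel)⟩, le_antisymm ((card_le_of_le h2).trans h4) h1,
    (Comp.eq_of_le_of_card_le h2 (h4.trans h1)).symm⟩

theorem max_A (h : Nat.card (normalizer (A10 : Set L)) = 2 ^ 10 * 9999360) : IsCoatom (normalizer (A10 : Set L)) :=
  coat h (by decide) fun M a1 a2 => by
    have h1 : orderOf (ev Mx [425]) = 31 := orderOf_ordW eX nX (by decide +kernel)
    have h2 : zpowers (ev Mx [425]) ≤ normalizer (A10 : Set L) := zpowers_le.2 (eX.nrmAll (ss := [[425]]) (us := AU10)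
      (by decide +kernel) (ev_mem_clo Mx List.mem_cons_self))
    obtain ⟨e, b1, b2, b3⟩ := sd31.cg_le (cz h1) one_ne_zero (h2.trans a1)
    obtain ⟨e', c1, c2, c3⟩ := sd31.cg_le (cz h1) one_ne_zero h2
    have d1 := card_dvd_of_le (inf_le_inf_right (normalizer (zpowers (ev Mx [425]) : Set L)) a1)
    rw [b2, c2] at d1
    rw [h] at c3
    rcases (by decide +kernel : ∀ e ∈ Nat.divisors 10, ∀ e' ∈ Nat.divisors 10, cg (2 ^ 10 * 9999360) (31 ^ 1) e' = true →
      31 ^ 1 * e' ∣ 31 ^ 1 * e → e = 5 ∨ e = 10) e (Nat.mem_divisors.2 ⟨b1, by decide⟩) e'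
        (Nat.mem_divisors.2 ⟨c1, by decide⟩) c3 d1 with rfl | rfl
    · exact fin_L a1 a2 h (fun m => cg m (31 ^ 1) 5) [1, 1, 0, 0, 3, 1, 1, 0, 1, 1] (by decide +kernel) b3
    have d2 := (Comp.eq_of_le_of_card_le inf_le_right ((sd31.norm (cz h1)).trans b2.symm).le).ge.trans inf_le_left
    have d3 : clo Mx [[425], [429], [405], [407]] ≤ M := clo_le.2 (by
      simp only [List.forall_mem_cons, List.not_mem_nil, false_imp_iff, implies_true, and_true]
      exact ⟨a1 (h2 (mem_zpowers _)), d2 (Eqv.nz eX (l := [[429]]) (ks := [30]) (by decide +kernel)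
        (ev_mem_clo Mx List.mem_cons_self)), a1 (le_normalizer (ev_mem_clo Mx (by decide +kernel))),
          a1 (le_normalizer (ev_mem_clo Mx (by decide +kernel)))⟩)
    exact fin_L a1 a2 h (fun m => Nat.beq (m % 23) 0) [1, 1, 0, 0, 3, 1, 1, 0, 1, 1] (by decide +kernel)
      (beq_iff.2 (Nat.mod_eq_zero_of_dvd (orderOf_ordW eX nX (w := [425, 405, 429, 407, 429, 405]) (o := 23) (by decide +kernel) ▸
        orderOf_dvd_natCard M (d3 (ev_mem_clo_of_wordIn (by decide +kernel))))))

end CF.J4F
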