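import Cfsg.Agent.J4F.L
import Cfsg.Agent.J4F.WD

/-! Elements of order three in the fourth Janko group. -/

set_option autoImplicit false
set_option maxRecDepth 1000000
set_option maxHeartbeats 400000
set_option Elab.async false

namespace CF.J4F

open CF.Comp CF.Bt CF.Dce CF.Dce.J4 MulAction Subgroup

/-- the letters -/
noncomputable abbrev fCw : ℕ → L := evs R CwT

theorem vCw : vOK RE 77 CwV CwS CwN CwT 5 = true := by decide +kernel

theorem rCw : Reps (vD vCw) CwN fCw := reps_v Rtb vCw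

/-- a Sylow subgroup -/
noncomputable abbrev P3 : Subgroup L := clo R [[315], [289], [43]]

theorem pc3 : Pc R 3 [[315], [289], [43]] := eR.pc (c := [([], [[3, 3, 1], [3]]), ([], [[1]]), ([], [])]) (by decide +kernel)

theorem card_P3 : Nat.card P3 = 3 ^ 3 :=
  (card_cube (by norm_num) (pc3.pgroup (by decide)) (pc3.card_le (by decide)) (a := ev R [289]) (b := ev R [315])
    (ev_mem_clo R (by decide)) (ev_mem_clo R (by decide)) (by
      rw [← ev_lapp, ← ev_lapp]; exact nR _ _ (by decide +kernel))).1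

theorem conj3 {x : L} (hx : orderOf x = 3) : IsConj x ω := by
  obtain ⟨g, -, h⟩ := exists_conj_mem (P := P3) (H := ⊤) le_top (p := 3) (by norm_num) (m := 3213910038743613440)
    (by rw [card_top, card_L, card_P3]; norm_num) (by norm_num) (mem_top x) (a := 1) (orderOf_dvd_iff_pow_eq_one.1 hx.dvd)
  rcases Pc.cjA eR (by decide) pc3 (x := [43]) (tb := P3b) (by decide +kernel) h with h | h
  · rw [orderOf_of_conj h, orderOf_one] at hx
    omega
  · exact (isConj_iff.2 ⟨g, rfl⟩).trans (Rω ▸ h)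

theorem Cw_le : clo R CwT ≤ centralizer {ω} := Rω ▸ Eqv.com1 eR (by decide +kernel)

theorem ord_dvd3 {w : List ℕ} {o : ℕ} (h : ordW (sb eqR CwT) (sb neR CwT) w o = true) :
    o ∣ Nat.card (centralizer {ω}) := orderOf_ordW (Eqv.sb eR _) (Nev.sb nR _) h ▸
  ord_dvd_cent (mem_centralizer_singleton_iff.1 (Cw_le (ev_clo _ w)))

theorem card3_le : Nat.card (centralizer {ω}) ≤ 6 * 443520 := by
  have h1 := (card_cent_of_conj (conj3 pr3.1)).symm.trans_le pr3.2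
  have h2 := cent_dvd ω
  have h3 : 3 ^ 3 ∣ Nat.card (centralizer {ω}) :=
    card_P3 ▸ card_dvd_of_le (Rω ▸ Eqv.com1 eR (by decide +kernel) : P3 ≤ centralizer {ω})
  obtain ⟨m, hm⟩ : 20790 ∣ Nat.card (centralizer {ω}) := Nat.lcm_dvd (Nat.lcm_dvd h3
    (ord_dvd3 (w := [1]) (o := 11) (by decide +kernel))) (Nat.lcm_dvd
      (ord_dvd3 (w := [7, 1]) (o := 14) (by decide +kernel)) (ord_dvd3 (w := [4, 1, 1]) (o := 30) (by decide +kernel)))
  rw [hm] at h1 h2 ⊢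
  exact (by decide +kernel : ∀ m < 143, 20790 * m ∣ 86775571046077562880 → 20790 * m ≤ 6 * 443520) m (by omega) h2

theorem qm3 : centralizer {ω} = clo R CwT ∧ Nat.card (centralizer {ω}) = 6 * 443520 ∧
    ∃ ψ : centralizer {ω} →* PG CwN, QM CwN 77 fCw CwC (centralizer {ω}) 6 ψ ∧
      ∀ x, ψ x = 1 ↔ x.1 ∈ zpowers (ev fCw [5]) := by
  have := exists_qm rCw (by decide) (m := 5) (by decide +kernel)
    (fun _ h => evs_eq_one (le_trans (by decide +kernel) h)) (fun i => Cw_le (evs_clo _ i)) (Z := zpowers (ev fCw [5]))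
    (c := CwC) (zpowers_le.2 (ev_mem_clo fCw (by decide +kernel))) (fun x hx i hi =>
      (zpowers_le.2 (rCw.fixW hi (by revert i; decide +kernel)) : _ ≤ stabilizer L _) hx)
    (by rw [Nat.card_zpowers, orderOf_ordW (Eqv.sb eR _) (Nev.sb nR _) (o := 6) (by decide +kernel)]) card3_le
    (by decide +kernel)
  rwa [Bt.clo_evs_gensW R CwT (by decide +kernel), eq_comm] at this

theorem card_c3 : Nat.card (centralizer {ω}) = 2661120 := qm3.2.1

theorem cent3 {a : List ℕ} {fw kg : List (List ℕ)} {T : Tr} {m : ℕ}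
    (h : stdOK CwN 77 7 CwC [a] [a] [] [] fw kg T m = true) :
    Nat.card ↥(centralizer {ω} ⊓ centralizer {ev fCw a} : Subgroup L) ≤ 6 * m :=
  let ⟨_, q, _⟩ := qm3.2.2; q.cent1 (by decide) (by decide) h

theorem nc3 {a c : List ℕ} {fw kg : List (List ℕ)} {T : Tr} (h : stdOK CwN 77 7 CwC [a] [c] [] [] fw kg T 0 = true) :
    ∀ g ∈ centralizer {ω}, g * ev fCw a * g⁻¹ ≠ ev fCw c :=
  let ⟨_, q, _⟩ := qm3.2.2; q.nc1 (by decide) (by decide) h

theorem s_Cw : ev fCw [5, 5, 5] = s := (ev_evs _ _).trans ((eR _ [7] (by decide +kernel)).trans Rs)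

theorem s_pow : s ∈ zpowers (ev fCw [5]) :=
  ((Eqv.pow (Eqv.sb eR CwT) (a := [5]) (k := 3) (by decide +kernel)).trans s_Cw) ▸ npow_mem_zpowers _ 3

theorem ncl3 {a : List ℕ} {fw kg : List (List ℕ)} {T : Tr} {m : ℕ}
    (h : stdOK CwN 77 7 CwC [a] [a] [] [] fw kg T m = true) {c : List Lvl} (h1 : commW CwN 77 7 (cgens c) [a] = true)
    (ok : (Bool.rec false (Nat.ble m (chainProd CwN 77 c)) (chainOK CwN 77 c) : Bool) = true)
    (h2 : com1 (sb eqR CwT) ([5] :: cgens c) a = true) :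
    ∀ g ∈ centralizer {ω}, g * ev fCw a * g⁻¹ ≠ ev fCw (lapp a [5, 5, 5]) := by
  obtain ⟨ψ, q, k⟩ := qm3.2.2
  have h3 := clo_le.1 (Eqv.com1 (Eqv.sb eR CwT) h2)
  rw [ev_lapp, s_Cw]
  exact q.nc_lift (by decide) (by decide) h h1 ok (fun x hx => zpowers_le.2 (h3 _ List.mem_cons_self) ((k x).1 hx))
    (fun w hw => h3 w (List.mem_cons_of_mem _ hw)) (s_Cw ▸ q.mem [5, 5, 5]) ((k _).2 s_pow) s_ne

theorem half3 {a g : List ℕ} {fw kg : List (List ℕ)} {T : Tr} {m : ℕ}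
    (h : stdOK CwN 77 7 CwC [a] [a] [] [] fw kg T m = true)
    (h1 : sb eqR CwT (lapp g a) (lapp (lapp a [5, 5, 5]) g) = true) (h2 : sb neR CwT (lapp g a) (lapp a g) = true) :
    Nat.card ↥(centralizer {ω} ⊓ centralizer {ev fCw a} : Subgroup L) ≤ 3 * m := by
  obtain ⟨ψ, q, k⟩ := qm3.2.2
  have hs : s ∈ centralizer {ω} := s_Cw ▸ q.mem [5, 5, 5]
  have := q.cent_half (by decide) (by decide) h (map_one ψ) (y' := ⟨s, hs⟩) ((k ⟨s, hs⟩).2 s_pow) (g := g)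
    (by rw [(Eqv.sb eR CwT).conj h1, ev_lapp, s_Cw]) (by
      rw [OneMemClass.coe_one, mul_one, ← ev_lapp, ← ev_lapp]; exact Nev.sb nR CwT _ _ h2)
  rw [OneMemClass.coe_one, mul_one] at this
  omega

theorem c3_le : centralizer {ev fCw [6, 6]} ≤ centralizer {ω} :=
  (congrArg (fun x => centralizer {x}) ((ev_evs _ _).trans ((eR _ [43] (by decide +kernel)).trans Rω))).le

theorem c6A : CB (ev fCw [5]) 6 2661120 ∧ ev fCw [5] ^ 4 = ev fCw [6, 6] :=
  cb_of (Eqv.sb eR _) (Nev.sb nR _) (by decide +kernel) c3_le ((card_le_of_le inf_le_left).trans card_c3.le)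

theorem c6B : CB (ev fCw [6, 6, 7, 7, 7, 7]) 6 2304 ∧ ev fCw [6, 6, 7, 7, 7, 7] ^ 4 = ev fCw [6, 6] :=
  cb_of (Eqv.sb eR _) (Nev.sb nR _) (by decide +kernel) c3_le (cent3 (fw := c6BbF) (kg := c6BbK) (T := c6Bb) (m := 384) (by decide +kernel))

theorem c6C : CB (ev fCw [6, 6, 7, 7, 7, 7, 5, 5, 5]) 6 2304 ∧ ev fCw [6, 6, 7, 7, 7, 7, 5, 5, 5] ^ 4 = ev fCw [6, 6] :=
  cb_of (Eqv.sb eR _) (Nev.sb nR _) (by decide +kernel) c3_le (cent3 (fw := c6CbF) (kg := c6CbK) (T := c6Cb) (m := 384) (by decide +kernel))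

theorem n6 : ¬ IsConj (ev fCw [6, 6, 7, 7, 7, 7]) (ev fCw [6, 6, 7, 7, 7, 7, 5, 5, 5]) :=
  nc_of_cent c6B.2 c6C.2 c3_le (ncl3 (fw := c6BbF) (kg := c6BbK) (T := c6Bb) (m := 384) (by decide +kernel) (c := c6Bc)
    (by decide +kernel) (by decide +kernel) (by decide +kernel))

theorem c12A : CB (ev fCw [6, 6, 7, 7]) 12 192 ∧ ev fCw [6, 6, 7, 7] ^ 4 = ev fCw [6, 6] :=
  cb_of (Eqv.sb eR _) (Nev.sb nR _) (by decide +kernel) c3_le (cent3 (fw := c12AbF) (kg := c12AbK) (T := c12Ab) (m := 32) (by decide +kernel))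

theorem c12B : CB (ev fCw [6, 6, 7, 7, 5, 5, 5]) 12 192 ∧ ev fCw [6, 6, 7, 7, 5, 5, 5] ^ 4 = ev fCw [6, 6] :=
  cb_of (Eqv.sb eR _) (Nev.sb nR _) (by decide +kernel) c3_le (cent3 (fw := c12BbF) (kg := c12BbK) (T := c12Bb) (m := 32) (by decide +kernel))

theorem n12 : ¬ IsConj (ev fCw [6, 6, 7, 7]) (ev fCw [6, 6, 7, 7, 5, 5, 5]) :=
  nc_of_cent c12A.2 c12B.2 c3_le (ncl3 (fw := c12AbF) (kg := c12AbK) (T := c12Ab) (m := 32) (by decide +kernel) (c := c12Ac)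
    (by decide +kernel) (by decide +kernel) (by decide +kernel))

theorem c24A : CB (ev fCw [6, 6, 7]) 24 48 ∧ ev fCw [6, 6, 7] ^ 16 = ev fCw [6, 6] :=
  cb_of (Eqv.sb eR _) (Nev.sb nR _) (by decide +kernel) c3_le (cent3 (fw := c24AbF) (kg := c24AbK) (T := c24Ab) (m := 8) (by decide +kernel))

theorem c24B : CB (ev fCw [6, 6, 7, 5, 5, 5]) 24 48 ∧ ev fCw [6, 6, 7, 5, 5, 5] ^ 16 = ev fCw [6, 6] :=
  cb_of (Eqv.sb eR _) (Nev.sb nR _) (by decide +kernel) c3_le (cent3 (fw := c24BbF) (kg := c24BbK) (T := c24Bb) (m := 8) (by decide +kernel))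

theorem n24 : ¬ IsConj (ev fCw [6, 6, 7]) (ev fCw [6, 6, 7, 5, 5, 5]) :=
  nc_of_cent c24A.2 c24B.2 c3_le (ncl3 (fw := c24AbF) (kg := c24AbK) (T := c24Ab) (m := 8) (by decide +kernel) (c := c24Ac)
    (by decide +kernel) (by decide +kernel) (by decide +kernel))

theorem c12C : CB (ev fCw [6, 6, 9]) 12 48 ∧ ev fCw [6, 6, 9] ^ 4 = ev fCw [6, 6] :=
  cb_of (Eqv.sb eR _) (Nev.sb nR _) (by decide +kernel) c3_le (half3 (g := [1, 9, 9, 2, 9, 9, 1]) (fw := c12CbF) (kg := c12CbK) (T := c12Cb) (m := 16) (by decide +kernel)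
    (by decide +kernel) (by decide +kernel))

theorem c33A : CB (ev fCw [6, 6, 1]) 33 66 ∧ ev fCw [6, 6, 1] ^ 22 = ev fCw [6, 6] :=
  cb_of (Eqv.sb eR _) (Nev.sb nR _) (by decide +kernel) c3_le (cent3 (fw := c33AbF) (kg := c33AbK) (T := c33Ab) (m := 11) (by decide +kernel))

theorem c33B : CB (ev fCw [6, 6, 2]) 33 66 ∧ ev fCw [6, 6, 2] ^ 22 = ev fCw [6, 6] :=
  cb_of (Eqv.sb eR _) (Nev.sb nR _) (by decide +kernel) c3_le (cent3 (fw := c33BbF) (kg := c33BbK) (T := c33Bb) (m := 11) (by decide +kernel))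

theorem c66A : CB (ev fCw [5, 1]) 66 66 ∧ ev fCw [5, 1] ^ 22 = ev fCw [6, 6] :=
  cb_of (Eqv.sb eR _) (Nev.sb nR _) (by decide +kernel) c3_le (cent3 (fw := c66AbF) (kg := c66AbK) (T := c66Ab) (m := 11) (by decide +kernel))

theorem c66B : CB (ev fCw [5, 2]) 66 66 ∧ ev fCw [5, 2] ^ 22 = ev fCw [6, 6] :=
  cb_of (Eqv.sb eR _) (Nev.sb nR _) (by decide +kernel) c3_le (cent3 (fw := c66BbF) (kg := c66BbK) (T := c66Bb) (m := 11) (by decide +kernel))

theorem n6B : ¬ IsConj (ev fCw [6, 6, 7, 7, 7, 7]) (ev fCw [5]) :=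
  nc_of_cent c6B.2 c6A.2 c3_le (nc3 (fw := n6BbF) (kg := n6BbK) (T := n6Bb) (by decide +kernel))

theorem n6C : ¬ IsConj (ev fCw [6, 6, 7, 7, 7, 7, 5, 5, 5]) (ev fCw [5]) :=
  nc_of_cent c6C.2 c6A.2 c3_le (nc3 (fw := n6CbF) (kg := n6CbK) (T := n6Cb) (by decide +kernel))

theorem n12A : ¬ IsConj (ev fCw [6, 6, 7, 7]) (ev fCw [6, 6, 9]) :=
  nc_of_cent c12A.2 c12C.2 c3_le (nc3 (fw := n12AbF) (kg := n12AbK) (T := n12Ab) (by decide +kernel))

theorem n12B : ¬ IsConj (ev fCw [6, 6, 7, 7, 5, 5, 5]) (ev fCw [6, 6, 9]) :=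
  nc_of_cent c12B.2 c12C.2 c3_le (nc3 (fw := n12BbF) (kg := n12BbK) (T := n12Bb) (by decide +kernel))

theorem n33 : ¬ IsConj (ev fCw [6, 6, 1]) (ev fCw [6, 6, 2]) :=
  nc_of_cent c33A.2 c33B.2 c3_le (nc3 (fw := n33bF) (kg := n33bK) (T := n33b) (by decide +kernel))

theorem n66 : ¬ IsConj (ev fCw [5, 1]) (ev fCw [5, 2]) :=
  nc_of_cent c66A.2 c66B.2 c3_le (nc3 (fw := n66bF) (kg := n66bK) (T := n66b) (by decide +kernel))

/-- an element of order eleven -/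
noncomputable abbrev t11 : L := ev R [297]

theorem ord_t : orderOf t11 = 11 := orderOf_ordW eR nR (by decide +kernel)

theorem t_ω : t11 ∈ centralizer {ω} := Cw_le (ev_mem_clo R (by decide +kernel))

theorem c3t : Nat.card ↥(centralizer {ω} ⊓ centralizer {t11} : Subgroup L) ≤ 66 := by
  have := cent3 (a := [1]) (fw := c3tbF) (kg := c3tbK) (T := c3tb) (m := 11) (by decide +kernel)
  rwa [evS (v := [297]) (by decide +kernel)] at this

theorem b3 : Blk L 3 [2661120] := blk1 ⟨ord_ω, card_c3.le⟩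
theorem b6 : Blk L 6 [2304, 2304, 2661120] := blk3 c6B.1 c6C.1 c6A.1 n6 n6B n6C
theorem b12 : Blk L 12 [192, 192, 48] := blk3 c12A.1 c12B.1 c12C.1 n12 n12A n12B
theorem b24 : Blk L 24 [48, 48] := blk2 c24A.1 c24B.1 n24
theorem b33 : Blk L 33 [66, 66] := blk2 c33A.1 c33B.1 n33
theorem b66 : Blk L 66 [66, 66] := blk2 c66A.1 c66B.1 n66

end CF.J4F
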