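import Cfsg.Agent.J4F.XE
import Cfsg.Agent.Bt.Cent

/-! Checks of search trees in `2 ^ 11 : M₂₄`. -/

set_option autoImplicit false
set_option maxRecDepth 1000000
set_option maxHeartbeats 0
set_option Elab.async false

namespace CF.J4F

open CF.Comp CF.Bt CF.Dce CF.Dce.J4

theorem kH16 : stdOK HxN 1518 11 HC [[73]] [[73]] [] [] H16bF H16bK H16b 32 = true := by decide +kernel

theorem kH8C : stdOK HxN 1518 11 HC [[73, 73]] [[73, 73]] [] [] H8CbF H8CbK H8Cb 512 = true := by decide +kernel

theorem kH4B : stdOK HxN 1518 11 HC [[73, 73, 73, 73]] [[73, 73, 73, 73]] [] [] H4BbF H4BbK H4Bb 98304 = true := by decide +kernel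

theorem kHN : stdOK HxN 1518 11 HC [[5]] [[5]] [fixAll HxN 1518 11 LH15] [fixAll HxN 1518 11 LH15] HNbF HNbK HNb 18874368 = true := by decide +kernel


end CF.J4F
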