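import Cfsg.Agent.J4F.XE
import Cfsg.Agent.Bt.Cent

/-! Checks of search trees in `2 ^ 11 : M₂₄`. -/

set_option autoImplicit false
set_option maxRecDepth 1000000
set_option maxHeartbeats 0
set_option Elab.async false

namespace CF.J4F

open CF.Comp CF.Bt CF.Dce CF.Dce.J4

theorem kH8A : stdOK HxN 1518 11 HC [[75]] [[75]] [] [] H8AbF H8AbK H8Ab 256 = true := by decide +kernel

theorem kH4C : stdOK HxN 1518 11 HC [[79]] [[79]] [] [] H4CbF H4CbK H4Cb 43008 = true := by decide +kernel


end CF.J4F
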