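import Cfsg.Agent.J4F.XE
import Cfsg.Agent.Bt.Cent

/-! Checks of search trees in `2 ^ 11 : M₂₄`. -/

set_option autoImplicit false
set_option maxRecDepth 1000000
set_option maxHeartbeats 0
set_option Elab.async false

namespace CF.J4F

open CF.Comp CF.Bt CF.Dce CF.Dce.J4

theorem kH8B : stdOK HxN 1518 11 HC [[77]] [[77]] [] [] H8BbF H8BbK H8Bb 768 = true := by decide +kernel

theorem kHZ : stdOK HxN 1518 11 HC LH15 LH15 [] [] HZbF HZbK HZb 8 = true := by decide +kernel


end CF.J4F
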