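import Cfsg.Agent.J4F.W
import Cfsg.Agent.J4F.XD
import Cfsg.Agent.J4F.X1
import Cfsg.Agent.J4F.X2
import Cfsg.Agent.J4F.X3

/-! Elements of even order in the fourth Janko group. -/

set_option autoImplicit false
set_option maxRecDepth 1000000
set_option maxHeartbeats 400000
set_option Elab.async false

namespace CF.J4F

open CF.Comp CF.Bt CF.Dce CF.Dce.J4 MulAction Subgroup

/-- the letters -/
noncomputable abbrev fBq : ℕ → L := evs R BqT

theorem vBq : vOK RE 77 BqV BqS BqN BqT 36 = true := by decide +kernel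

theorem rBq : Reps (vD vBq) BqN fBq := reps_v Rtb vBq

theorem Bq_le : clo R BqT ≤ B := clo_B (by decide +kernel)

theorem QZ_eq : clo fBq [[33], [9], [11], [13], [15], [17], [19], [21], [23], [25], [27], [29], [31], [7]] = Q ⊔ zpowers ω := by
  rw [cloS (vs := [43] :: QW) (by decide +kernel), clo_cons, Rω, ← Q_eq]
  have k : ∀ w ∈ QW, ev R w = ev Z w := fun w hw => RZ (by revert w; decide +kernel)
  exact congrArg (· ⊔ zpowers ω) (le_antisymm (clo_le.2 fun w hw => k w hw ▸ ev_mem_clo Z hw)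
    (clo_le.2 fun w hw => k w hw ▸ ev_mem_clo R hw))

theorem card_QZ : Nat.card ↥(Q ⊔ zpowers ω) = 24576 := by
  obtain ⟨φ, -, h1, h2⟩ := exists_φ1
  rw [← card_sub_of (sup_le Q_B (zpowers_le.2 ω_B)), ← show φ.ker = (Q ⊔ zpowers ω).subgroupOf B from Subgroup.ext h2, h1]
  rfl

theorem qmQ : closure (Set.range fBq) = B ∧ ∃ ψ : B →* PG BqN, QM BqN 77 fBq BqC B 24576 ψ ∧
    ∀ x, ψ x = 1 ↔ x.1 ∈ Q ⊔ zpowers ω := by
  have h1 : ∀ i, 36 ≤ i → fBq i = 1 := fun _ h => evs_eq_one (le_trans (by decide +kernel) h)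
  obtain ⟨h2, -, h3⟩ := exists_qm rBq (by decide) (m := 36) (by decide +kernel) h1 (fun i => Bq_le (evs_clo _ i))
    (Z := Q ⊔ zpowers ω) (c := BqC) (QZ_eq ▸ clo_mono (by decide +kernel)) (fun x hx i hi =>
      (QZ_eq ▸ clo_le.2 fun w hw => rBq.fixW hi (by revert w i; decide +kernel) : _ ≤ stabilizer L _) hx)
    card_QZ.ge (s := 887040) card_B.le (by decide +kernel)
  exact ⟨clo_gensW h1 ▸ h2, h3⟩

theorem ptB : stabilizer L ((vD vBq).pt 0) = H := by rw [pt0 vBq (by decide +kernel), stab_e0]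

theorem ncQ {a c a' c' : List ℕ} {fw kg : List (List ℕ)} {T : Tr} (h : stdOK BqN 77 7 BqC [a] [c] [] [] fw kg T 0 = true)
    (h1 : subst BqT a = a') (h2 : subst BqT c = c') : ∀ g ∈ B, g * ev R a' * g⁻¹ ≠ ev R c' :=
  let ⟨_, q, _⟩ := qmQ.2; evS (f := R) h1 ▸ evS (f := R) h2 ▸ q.nc1 (by decide) (by decide) h

theorem cs_le : centralizer {ev R [7]} ≤ B := Rs ▸ cent_s.1.le

theorem fixB {ws vs : List (List ℕ)} {m : ℕ}
    (h : (Bool.rec false (Nat.ble (pop 77 (fixAll BqN 77 7 ws)) m) (lall (fixW BqN 0) ws) : Bool) = true)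
    (e : lmap (subst BqT) ws = vs) {A : Subgroup L} (h1 : A ≤ B) (h2 : A ≤ normalizer (clo R vs : Set L)) :
    Nat.card A ≤ m * Nat.card ↥(A ⊓ H) :=
  ptB ▸ card_le_fixAll rBq (by decide) (by decide) (by decide) h (qmQ.1 ▸ h1) (cloS (f := R) e ▸ h2)

theorem centBH {w v : List ℕ} {m c : ℕ}
    (h : (Bool.rec false (Nat.ble (pop 77 (fixAll BqN 77 7 [w])) m) (lall (fixW BqN 0) [w]) : Bool) = true)
    (e : lmap (subst BqT) [w] = [v]) (hc : Nat.card ↥(H ⊓ centralizer {ev R v}) ≤ c) :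
    Nat.card ↥(B ⊓ centralizer {ev R v}) ≤ m * c :=
  (fixB h e inf_le_left (inf_le_right.trans (by
    rw [clo_single, ← cent_zpowers]; exact centralizer_le_normalizer _))).trans
      (Nat.mul_le_mul_left _ ((card_le_of_le (le_inf inf_le_right (inf_le_left.trans inf_le_right))).trans hc))

theorem t_B : t11 ∈ B := Bq_le (ev_mem_clo R (by decide +kernel))

theorem cBt : Nat.card ↥(B ⊓ centralizer {t11}) ≤ 264 := by
  obtain ⟨ψ, q, k⟩ := qmQ.2
  have h1 := q.cent_ker (by decide) (k := 7) (by decide) (a := [35]) (fw := BtbF) (kg := BtbK) (T := Btb) (m := 11) (by decide +kernel)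
    fun x => (k x).1
  rw [evS (v := [297]) (by decide +kernel)] at h1
  have hZ : Q ⊔ zpowers ω ≤ B := sup_le Q_B (zpowers_le.2 ω_B)
  have h2 := card_modEq_cent (p := 11) (by norm_num) (orderOf_dvd_iff_pow_eq_one.1 ord_t.dvd) (A := Q ⊔ zpowers ω)
    ((normal_subgroupOf_iff_le_normalizer hZ).1 ((show ψ.ker = (Q ⊔ zpowers ω).subgroupOf B from Subgroup.ext k) ▸ inferInstance) t_B)
  have h3 := card_dvd_of_le (inf_le_left : (Q ⊔ zpowers ω) ⊓ centralizer {t11} ≤ _)
  have h4 := card_dvd_of_le (zpowers_le.2 ⟨mem_sup_right (mem_zpowers ω), mem_centralizer_singleton_iff.2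
    (mem_centralizer_singleton_iff.1 t_ω).symm⟩ : zpowers ω ≤ (Q ⊔ zpowers ω) ⊓ centralizer {t11})
  have h5 := two_mul_card_le (inf_le_left : (Q ⊔ zpowers ω) ⊓ centralizer {t11} ≤ _) fun h =>
    nR [45, 297] [297, 45] (by decide +kernel) ((ev_lapp R [45] [297]).trans ((mem_centralizer_singleton_iff.1
      (h (mem_sup_left ((RF (w := [45]) (by decide +kernel)).symm ▸ ev_mem_clo F (ws := QW) (w := [45]) (by decide +kernel)))).2).trans
        (ev_lapp R [297] [45]).symm))
  rw [card_QZ] at h2 h3 h5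
  rw [Nat.card_zpowers, ord_ω] at h4
  have := (by decide +kernel : ∀ c ∈ Nat.divisors 24576, 3 ∣ c → 24576 % 11 = c % 11 → 2 * c ≤ 24576 → c ≤ 24) _
    (Nat.mem_divisors.2 ⟨h3, by decide⟩) h4 h2 h5
  exact h1.trans (Nat.mul_le_mul_right 11 this)

theorem c4B_le : centralizer {ev R [327, 327, 327, 327]} ≤ H := fun x hx => by
  obtain ⟨ψ, q, k⟩ := qmQ.2
  have e : ev fBq [39, 39, 39, 39] = ev R [327, 327, 327, 327] := evS (by decide +kernel)
  refine q.cent_sub (by decide) (k := 7) (by decide) (a := [39, 39, 39, 39]) (fw := B4bF) (kg := B4bK) (T := B4b) (m := 768) (by decide +kernel) (c' := B4c)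
    (by decide +kernel) (by decide +kernel) (fun y hy => ?_) (fun w hw => ptB ▸ rBq.fixW (by decide)
      (by revert w; decide +kernel)) (cs_le (Eqv.pow eR (a := [327, 327, 327, 327]) (k := 2) (b := [7]) (by decide +kernel) ▸ cent_pow_le _ 2 hx)) (one_mem _)
    (map_one ψ) (by rw [e, mul_one, mem_centralizer_singleton_iff.1 hx, mul_inv_cancel_right])
  exact (QZ_eq ▸ ptB ▸ clo_le.2 fun w hw => rBq.fixW (by decide) (by revert w; decide +kernel) : _ ≤ H) ((k y).1 hy)

/-! ### the subgroup `2 ^ 11 : M₂₄` -/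

/-- the letters -/
noncomputable abbrev fHx : ℕ → L := evs R HxT

theorem vHx : vOK RE 1518 HV HS HxN HxT 54 = true := by decide +kernel

theorem evHx (w : List ℕ) : ev fHx w ∈ H := clo_H (by decide +kernel) (ev_clo _ w)

theorem exHx : Exact (vD vHx) HxN fHx HC H :=
  exact_of_le (reps_v Rtb vHx) (by decide) (fun w _ => evHx w) card_H.le (by decide +kernel)

theorem centHx {a v : List ℕ} {fw kg : List (List ℕ)} {T : Tr} {m : ℕ}
    (h : stdOK HxN 1518 11 HC [a] [a] [] [] fw kg T m = true) (e : subst HxT a = v) :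
    Nat.card ↥(H ⊓ centralizer {ev R v}) ≤ m := evS (f := R) e ▸
  Bt.card_cent_le exHx (by decide) (by decide) exHx.faithful le_rfl (evHx a) (fun w _ => evHx w) h

theorem cu_le : centralizer {ev R [225]} ≤ H := Ru ▸ cent_u.1

theorem c4B : CB (ev R [327, 327, 327, 327]) 4 98304 ∧ ev R [327, 327, 327, 327] ^ 1 = ev R [327, 327, 327, 327] :=
  cb_of eR nR (by decide +kernel) c4B_le (centHx kH4B (by decide +kernel))

theorem c4C : CB (ev R [305]) 4 43008 ∧ ev R [305] ^ 2 = ev R [225] :=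
  cb_of eR nR (by decide +kernel) cu_le (centHx kH4C (by decide +kernel))

theorem c8A : CB (ev R [325]) 8 1280 ∧ ev R [325] ^ 4 = ev R [7] :=
  cb_of eR nR (by decide +kernel) cs_le (centBH (w := [41]) (v := [325]) (m := 5) (c := 256) (by decide +kernel) (by decide +kernel)
    (centHx kH8A (by decide +kernel)))

theorem c8B : CB (ev R [329]) 8 768 ∧ ev R [329] ^ 4 = ev R [7] :=
  cb_of eR nR (by decide +kernel) cs_le (centBH (w := [43]) (v := [329]) (m := 1) (c := 768) (by decide +kernel) (by decide +kernel)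
    (centHx kH8B (by decide +kernel)))

theorem c8C : CB (ev R [327, 327]) 8 512 ∧ ev R [327, 327] ^ 2 = ev R [327, 327, 327, 327] :=
  cb_of eR nR (by decide +kernel) c4B_le (centHx kH8C (by decide +kernel))

theorem c16 : CB (ev R [327]) 16 32 ∧ ev R [327] ^ 4 = ev R [327, 327, 327, 327] :=
  cb_of eR nR (by decide +kernel) c4B_le (centHx kH16 (by decide +kernel))

theorem qa_Q : ev R [309] ∈ Q := ((eR [309] [49, 57, 61, 65, 67] (by decide +kernel)).trans (RF (by decide +kernel))).symm ▸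
  ev_mem_clo_of_wordIn (by decide +kernel)

theorem qa_sq : ev R [309] ^ 2 = ev R [7] := Eqv.pow eR (by decide +kernel)

theorem c4A : CB (ev R [309]) 4 5406720 :=
  ⟨orderOf_ordW eR nR (by decide +kernel), cent_4A qa_Q (by rw [← sq, qa_sq, Rs]; exact s_ne)⟩

theorem nc_su' : ¬ IsConj (ev R [7]) (ev R [225]) := Rs ▸ Ru ▸ nc_su

theorem b2 : Blk L 2 [21799895040, 1816657920] := blk2 ⟨ord_s, card_cent_s.le⟩ ⟨ord_u, cent_u.2.le⟩ nc_su

theorem b4 : Blk L 4 [98304, 5406720, 43008] := blk3 c4B.1 c4A c4C.1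
  (nc_of_cent (Eqv.pow eR (k := 2) (b := [7]) (by decide +kernel)) qa_sq cs_le
    (ncQ (a := [39, 39, 39, 39]) (c := [37]) (fw := Bn4bF) (kg := Bn4bK) (T := Bn4b) (by decide +kernel) (by decide +kernel) (by decide +kernel)))
  (nc_of_pow (Eqv.pow eR (k := 2) (b := [7]) (by decide +kernel)) c4C.2 nc_su') (nc_of_pow qa_sq c4C.2 nc_su')

theorem b8 : Blk L 8 [1280, 768, 512] := blk3 c8A.1 c8B.1 c8C.1
  (nc_of_cent c8A.2 c8B.2 cs_le
    (ncQ (a := [41]) (c := [43]) (fw := Bn8abF) (kg := Bn8abK) (T := Bn8ab) (by decide +kernel) (by decide +kernel) (by decide +kernel)))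
  (nc_of_cent c8A.2 (Eqv.pow eR (k := 4) (b := [7]) (by decide +kernel)) cs_le
    (ncQ (a := [41]) (c := [39, 39]) (fw := Bn8bbF) (kg := Bn8bbK) (T := Bn8bb) (by decide +kernel) (by decide +kernel) (by decide +kernel)))
  (nc_of_cent c8B.2 (Eqv.pow eR (k := 4) (b := [7]) (by decide +kernel)) cs_le
    (ncQ (a := [43]) (c := [39, 39]) (fw := Bn8cbF) (kg := Bn8cbK) (T := Bn8cb) (by decide +kernel) (by decide +kernel) (by decide +kernel)))

theorem b16 : Blk L 16 [32] := blk1 c16.1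

/-! ### the special group of order `2 ^ 15` -/

/-- the special group -/
noncomputable abbrev L15 : Subgroup L := clo R LW15

theorem LH_eq : clo fHx LH15 = L15 := cloS (by decide +kernel)

theorem L15_ge : 2 ^ 15 ≤ Nat.card L15 := le_trans (by decide +kernel) (exHx.reps.chain_le (by decide) (c := HLc)
  (by decide +kernel) fun w hw => LH_eq ▸ ev_mem_clo_of_wordIn (by revert w; decide +kernel))

theorem cenL : Nat.card ↥(H ⊓ centralizer (L15 : Set L)) ≤ 8 :=
  card_le_of_std exHx (by decide) (k := 11) (by decide) exHx.faithful le_rfl 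
    (fun w _ => evHx w) (fun w _ => evHx w) kHZ inf_le_left
    (fun g hg w hw => (mem_centralizer_iff.1 hg.2 _ (LH_eq ▸ ev_mem_clo fHx hw)).symm) (by simp)

theorem norL : Nat.card ↥(normalizer (L15 : Set L) ⊓ B) ≤ 5 * 18874368 := by
  refine (fixB (ws := LB15) (by decide +kernel) (by decide +kernel) inf_le_right inf_le_left).trans
    (Nat.mul_le_mul_left _ (card_le_of_std exHx (by decide) (k := 11) (by decide) exHx.faithful le_rfl
      (fun w _ => evHx w) (fun w _ => evHx w) kHN inf_le_right (fun g hg w hw => ?_) fun g hg x hx => ?_))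
  · rw [List.mem_singleton.1 hw, evS (v := [7]) (by decide +kernel), Rs]
    exact mem_centralizer_singleton_iff.1 (cent_s.1.ge hg.1.2)
  · rw [List.mem_singleton.1 hx]
    exact smul_fixAll exHx.reps (by decide) _ (Exact.le_range exHx hg.2) (LH_eq.symm ▸ hg.1.1)

end CF.J4F
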